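import Cfsg.Agent.H06.J0

/-! Part U3 of the interface `H06.J`. -/

set_option autoImplicit false
open Subgroup
open scoped commutatorElement

namespace H22.JU
universe u
open Cfsg.Agent.H06.J

theorem two_elts {Γ : Type u} [Group Γ] [Finite Γ] (H : Subgroup Γ) (h : 2 < Nat.card H) :
    ∃ y ∈ H, ∃ y' ∈ H, y ≠ 1 ∧ y' ≠ 1 ∧ y ≠ y' := by
  classical
  have := Fintype.ofFinite H
  rw [Nat.card_eq_fintype_card, Fintype.two_lt_card_iff] at h
  obtain ⟨a, b, c, hab, hac, hbc⟩ := h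
  refine ⟨(a⁻¹ * b : H), (a⁻¹ * b).2, (a⁻¹ * c : H), (a⁻¹ * c).2, ?_, ?_, ?_⟩
  · intro h
    exact hab (inv_mul_eq_one.1 (Subtype.ext h))
  · intro h
    exact hac (inv_mul_eq_one.1 (Subtype.ext h))
  · intro h
    exact hbc (mul_left_cancel (Subtype.ext h))

theorem comm2 {Γ : Type u} [Group Γ] {E : Subgroup Γ} (h : ∀ g ∈ E, g * g = 1) {a b : Γ} (ha : a ∈ E) (hb : b ∈ E) :
    a * b = b * a := by
  have h1 := h _ (E.mul_mem ha hb)
  have h2 := h _ ha
  have h3 := h _ hb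
  calc a * b = a * (a * b * (a * b)) * b := by rw [h1, mul_one]
    _ = (a * a) * (b * a) * (b * b) := by simp only [mul_assoc]
    _ = b * a := by rw [h2, h3, one_mul, mul_one]

variable {V : Type u} [AddCommGroup V] [Module (ZMod 2) V] [Finite V] {Γ : Type u} [Group Γ] [Finite Γ]
  {T : Γ → V →+ V} {d : Γ} {M K Y : Subgroup Γ} {β : V →+ V →+ ZMod 2} {q : V → ZMod 2} {B : AddSubgroup V}

omit [Finite V] in
theorem vv (v : V) : v + v = 0 := by
  have h : (1 + 1 : ZMod 2) = 0 := by decide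
  have := add_smul (1 : ZMod 2) 1 v
  rw [h, zero_smul, one_smul] at this
  exact this.symm

theorem semi (g : Gj T d M β q) {e : Γ} (he : e ∉ M) {u : V} (h1 : T e u = u) (h2 : T e (T d u) = T d u) : u = 0 := by
  rw [← g.mul, g.nM e he, g.mul, g.mul, h1] at h2
  have := g.hf u
  rw [h2, add_assoc, vv, add_zero] at this
  exact this

theorem cY (g : Gj T d M β q) (hx : Hx d K Y) (hK : K ≤ M) {e : Γ} (he : e ∈ K) (he2 : e * e = 1)
    (hc : ∀ y ∈ Y, y * e = e * y) : e ∈ Y := by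
  rcases hx.s2 (K ⊓ centralizer (Y : Set Γ)) inf_le_left
    (fun y hy => ⟨hx.YK hy, fun y' hy' => comm2 hx.Y2 hy' hy⟩)
    ⟨hx.dK, fun y hy => g.Md y (hK (hx.YK hy))⟩ (by
      rintro k hk n ⟨hn, hn'⟩
      refine ⟨K.mul_mem (K.mul_mem hk hn) (K.inv_mem hk), fun y hy => ?_⟩
      have := hn' _ (hx.nY k⁻¹ (K.inv_mem hk) y hy)
      calc y * (k * n * k⁻¹) = k * (k⁻¹ * y * k⁻¹⁻¹ * n) * k⁻¹ := by group
        _ = k * n * k⁻¹ * y := by rw [this]; group) with h | h
  · exfalso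
    obtain ⟨y, hy, y', hy', h1, h2, h3⟩ := two_elts Y (by rw [hx.cY]; norm_num)
    obtain ⟨k, hk, hk'⟩ := hx.tr y hy y' hy' h1 h2
    apply h3
    rw [← hk', ← (h hk).2 y hy, mul_inv_cancel_right]
  · exact h e ⟨he, hc⟩ he2

/-- pointwise stabiliser -/
def Fx (g : Gj T d M β q) (B : AddSubgroup V) : Subgroup Γ where
  carrier := {k | ∀ v ∈ B, T k v = v}
  one_mem' := fun v _ => g.one v
  mul_mem' := fun {a b} ha hb v hv => by rw [g.mul, hb v hv, ha v hv]
  inv_mem' := fun {a} ha v hv => by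
    conv_lhs => rw [← ha v hv]
    rw [← g.mul, inv_mul_cancel, g.one]

theorem Bne (p : Pj T d K Y q B) (h : ∀ v ∈ B, v = 0) : False := by
  have : B = ⊥ := eq_bot_iff.2 h
  have h2 := p.cB
  rw [this] at h2
  simp at h2

theorem fx (g : Gj T d M β q) (hx : Hx d K Y) (hK : K ≤ M) (hd : d ∈ ⁅K, K⁆) (p : Pj T d K Y q B) (e : Γ)
    (he2 : e * e = 1) (he : e ∈ M → e ∈ K) (hv : ∀ v ∈ B, T e v = v) : e ∈ Y := by
  by_cases heM : e ∈ M
  swap
  · exact (Bne p fun v hv' => semi g heM (hv v hv') (hv _ (p.Bω v hv'))).elim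
  have cm : ∀ c ∈ zpowers d, ∀ k ∈ K, Commute c k := by
    rintro c ⟨i, rfl⟩ k hk
    exact (Commute.zpow_left (g.Md k (hK hk)).symm i)
  have nF : ∀ k ∈ K, ∀ n ∈ Fx g B, k * n * k⁻¹ ∈ Fx g B := by
    intro k hk n hn v hv
    rw [g.mul, g.mul, hn _ (p.KB _ (K.inv_mem hk) v hv), ← g.mul, mul_inv_cancel, g.one]
  let N : Subgroup Γ :=
    { carrier := {k | k ∈ K ∧ ∃ c ∈ zpowers d, c * k ∈ Fx g B}
      one_mem' := ⟨K.one_mem, 1, one_mem _, by simp⟩
      mul_mem' := by
        rintro a b ⟨ha, c, hc, hc'⟩ ⟨hb, c', hd, hd'⟩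
        refine ⟨K.mul_mem ha hb, c * c', mul_mem hc hd, ?_⟩
        have : c * c' * (a * b) = c * a * (c' * b) := by
          rw [mul_assoc, ← mul_assoc c', (cm c' hd a ha).eq]; simp only [mul_assoc]
        rw [this]
        exact mul_mem hc' hd'
      inv_mem' := by
        rintro a ⟨ha, c, hc, hc'⟩
        refine ⟨K.inv_mem ha, c⁻¹, inv_mem hc, ?_⟩
        rw [← mul_inv_rev, ← (cm c hc a ha).eq]
        exact inv_mem hc' }
  rcases hx.s2 N (fun k hk => hk.1)
    (fun y hy => ⟨hx.YK hy, 1, one_mem _, by rw [one_mul]; exact fun v hv => (p.mB v).1 hv y hy⟩)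
    ⟨hx.dK, d⁻¹, inv_mem (mem_zpowers d), by simp⟩ (by
      rintro k hk n ⟨hn, c, hc, hc'⟩
      refine ⟨K.mul_mem (K.mul_mem hk hn) (K.inv_mem hk), c, hc, ?_⟩
      have : c * (k * n * k⁻¹) = k * (c * n) * k⁻¹ := by
        rw [← mul_assoc, ← mul_assoc, (cm c hc k hk).eq]; simp only [mul_assoc]
      rw [this]
      exact nF k hk _ hc') with h | h
  · exfalso
    have hle : ⁅K, K⁆ ≤ Fx g B := by
      rw [commutator_le]
      intro a ha b hb
      obtain ⟨-, c, hc, hc'⟩ := h ha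
      have h1 := (cm c hc b hb).eq
      have h2 := (cm c hc a ha).eq
      have : ⁅a, b⁆ = (c * a) * (b * (c * a)⁻¹ * b⁻¹) := by
        rw [commutatorElement_def]
        calc a * b * a⁻¹ * b⁻¹ = a * (b * c) * c⁻¹ * a⁻¹ * b⁻¹ := by group
          _ = (a * c) * b * (a * c)⁻¹ * b⁻¹ := by rw [← h1]; group
          _ = _ := by rw [← h2]; group
      rw [this]
      exact mul_mem hc' (nF b hb _ (inv_mem hc'))
    refine Bne p fun v hv => ?_
    have h1 := hle hd v hv
    have := g.hf v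
    rw [h1, h1, vv, zero_add] at this
    exact this
  · exact h e ⟨he heM, 1, one_mem _, by rw [one_mul]; exact hv⟩ he2

theorem un (g : Gj T d M β q) (hx : Hx d K Y) (hK : K ≤ M) (hd : d ∈ ⁅K, K⁆) (p : Pj T d K Y q B) (i : Pi T Y B)
    (E : Subgroup Γ) (hE : E ⊓ M ≤ K) (h2 : ∀ g ∈ E, g * g = 1) (B' : AddSubgroup V)
    (hB : ∀ u ∈ B', ∀ v ∈ B', β u v = 0) (hf : ∀ g ∈ E, ∀ v ∈ B', T g v = v)
    (hc : 1024 ≤ Nat.card E * Nat.card B') : B' = B := by
  have b64 : Nat.card B' ≤ 64 := g.toQF.iso64 hB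
  have h3 := hx.s3 (E ⊓ M) hE fun g hg => h2 g hg.1
  have e32 : Nat.card ↥(E ⊓ M) ≤ 32 := by
    have hdv : Nat.card ↥(E ⊓ M ⊓ Y) ∣ 16 := hx.cY ▸ card_dvd_of_le inf_le_right
    by_cases ha : Nat.card ↥(E ⊓ M ⊓ Y) ≤ 8
    · omega
    · have h16 : Nat.card ↥(E ⊓ M ⊓ Y) = 16 := by
        have := Nat.le_of_dvd (by norm_num) hdv
        generalize Nat.card ↥(E ⊓ M ⊓ Y) = a at *
        interval_cases a <;> omega
      have hY : E ⊓ M ⊓ Y = Y := eq_of_le_of_card_ge inf_le_right (by rw [h16, hx.cY])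
      have hle : E ⊓ M ≤ Y := fun e he => cY g hx hK (hE he) (h2 e he.1) fun y hy =>
        comm2 h2 (hY.ge hy).1.1 he.1
      have := card_le_of_le hle
      rw [hx.cY] at this
      omega
  have e2 : Nat.card E ≤ 2 * Nat.card ↥(E ⊓ M) := by
    have h1 := relIndex_mul_relIndex ⊥ (E ⊓ M) E bot_le inf_le_left
    rw [relIndex_bot_left, relIndex_bot_left, inf_relIndex_left] at h1
    have h4 : M.relIndex E ≤ 2 := by
      rw [← g.Mi, ← relIndex_top_right]
      exact relIndex_le_of_le_right le_top (by rw [relIndex_top_right, g.Mi]; norm_num)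
    rw [← h1, mul_comm]
    exact Nat.mul_le_mul_right _ h4
  have two : 2 < Nat.card ↥(E ⊓ M ⊓ Y) → ∀ v, (∀ e ∈ E ⊓ M, T e v = v) → v ∈ B := by
    intro h v hv
    obtain ⟨y, hy, y', hy', h1, h1', h1''⟩ := two_elts _ h
    exact i.two y hy.2 y' hy'.2 h1 h1' h1'' v (hv y hy.1) (hv y' hy'.1)
  by_cases hM : E ≤ M
  · have hEM : E ⊓ M = E := inf_eq_left.2 hM
    rw [hEM] at h3 e32 hE two
    have hle : B' ≤ B := fun v hv => two (by nlinarith) v fun e he => hf e he v hv
    by_cases hY : E ≤ Y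
    · have := card_le_of_le hY
      rw [hx.cY] at this
      exact AddSubgroup.eq_of_le_of_card_ge hle (by rw [p.cB]; nlinarith)
    · exfalso
      obtain ⟨e, he, heY⟩ := SetLike.not_le_iff_exists.1 hY
      let C : AddSubgroup V := B ⊓ AddMonoidHom.eqLocus (T e) (AddMonoidHom.id V)
      have hC : ∀ v, v ∈ C ↔ v ∈ B ∧ T e v = v := fun v => Iff.rfl
      have hw : ∀ v ∈ C, T d v ∈ C := fun v hv => ⟨p.Bω v hv.1, by
        change T e (T d v) = T d v
        rw [← g.mul, g.Md e (hM he), g.mul, ((hC v).1 hv).2]⟩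
      have h32 : 32 ≤ Nat.card C := by
        have : Nat.card B' ≤ Nat.card C := AddSubgroup.card_le_of_le fun v hv => ⟨hle hv, hf e he v hv⟩
        nlinarith
      have h1 := AddSubgroup.relIndex_mul_relIndex ⊥ C B bot_le inf_le_left
      rw [AddSubgroup.relIndex_bot_left, AddSubgroup.relIndex_bot_left, p.cB] at h1
      have hne : ¬ B ≤ C := fun h => heY (fx g hx hK hd p e (h2 e he) (fun _ => hE he) fun v hv => (h hv).2)
      have hi : C.relIndex B = 2 := by
        have h5 : C.relIndex B ≠ 1 := fun h => hne (AddSubgroup.relIndex_eq_one.1 h)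
        have h6 : C.relIndex B ≠ 0 := by
          intro h
          rw [h] at h1
          omega
        have h7 : C.relIndex B < 3 := by nlinarith
        omega
      obtain ⟨v, hv, hvC⟩ := SetLike.not_le_iff_exists.1 hne
      have w3 : ∀ v, T d (T d (T d v)) = v := fun v => by rw [← g.mul, ← g.mul, mul_assoc, g.d3, g.one]
      have n1 : T d v ∉ C := fun h => hvC (w3 v ▸ hw _ (hw _ h))
      have n2 : T d (T d v) ∉ C := fun h => hvC (w3 v ▸ hw _ h)
      have := (AddSubgroup.add_mem_iff_of_index_two hi (a := ⟨v, hv⟩) (b := ⟨T d v, p.Bω v hv⟩)).2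
        (iff_of_false hvC n1)
      apply n2
      have h8 : T d (T d v) = v + T d v := by
        have h9 := g.hf v
        rw [add_eq_zero_iff_eq_neg] at h9
        rw [h9, eq_neg_iff_add_eq_zero, vv]
      rw [h8]
      exact this
  · exfalso
    obtain ⟨e, he, heM⟩ := SetLike.not_le_iff_exists.1 hM
    let φ : B' × B' →+ V := B'.subtype.coprod ((T d).comp B'.subtype)
    have hφ : Function.Injective φ := by
      rw [injective_iff_map_eq_zero]
      rintro ⟨a, b⟩ hab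
      change (a : V) + T d b = 0 at hab
      have h1 : T d b = -a := eq_neg_of_add_eq_zero_right hab
      have hb : (b : V) = 0 := semi g heM (hf e he b b.2) (by rw [h1, map_neg, hf e he a a.2])
      have ha : (a : V) = 0 := by rwa [hb, map_zero, add_zero] at hab
      exact Prod.ext (Subtype.ext ha) (Subtype.ext hb)
    have hU : Nat.card φ.range = Nat.card B' * Nat.card B' := by
      rw [← Nat.card_prod]
      exact (Nat.card_congr (AddMonoidHom.ofInjective hφ).toEquiv).symm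
    have hfix : ∀ v ∈ φ.range, ∀ k ∈ E ⊓ M, T k v = v := by
      rintro _ ⟨⟨a, b⟩, rfl⟩ k hk
      change T k ((a : V) + T d b) = a + T d b
      rw [map_add, hf k hk.1 a a.2, ← g.mul, g.Md k hk.2, g.mul, hf k hk.1 b b.2]
    by_cases ha : 2 < Nat.card ↥(E ⊓ M ⊓ Y)
    · have := AddSubgroup.card_le_of_le (show φ.range ≤ B from fun v hv => two ha v (hfix v hv))
      rw [hU, p.cB] at this
      have h8 : Nat.card B' ≤ 8 := by nlinarith
      nlinarith
    · by_cases ha1 : Nat.card ↥(E ⊓ M ⊓ Y) ≤ 1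
      · nlinarith
      · have hb : E ⊓ M ⊓ Y ≠ ⊥ := by
          intro h
          rw [h] at ha1
          simp at ha1
        obtain ⟨⟨y, hy⟩, hy1⟩ := ne_bot_iff_exists_ne_one.1 hb
        have := i.c256 y hy.2 (fun h => hy1 (Subtype.ext h)) φ.range fun v hv => hfix v hv y hy.1
        rw [hU] at this
        have h8 : Nat.card B' ≤ 16 := by nlinarith
        nlinarith

theorem u3 : U3Stmt.{u} := fun g hx hK hd p i => ⟨fx g hx hK hd p, un g hx hK hd p i⟩

end H22.JU
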