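import Mathlib
import Cfsg.Agent.H12.XfC

/-!
# Overgroups of the orthogonal subfield subgroup of `SU_n(q)`, `n ≥ 6`, `q` odd
* `RO.dich`, `su_subf_o6`, `su6_11`
-/

set_option autoImplicit false

namespace H22.Su

open Module H10 H10.Form

variable {F V : Type*} [Field F] [AddCommGroup V] [Module F V] {φ : Form F V}
  [φ.Nondeg] [FiniteDimensional F V] [Finite F]

/-- an orthogonal rational structure and an overgroup of the rational Siegel maps -/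
structure RO (φ : Form F V) [φ.Nondeg] [FiniteDimensional F V] (K : Subfield F) (L : Submodule K V)
    (M : Subgroup φ.Isom) (θ : F) : Prop where
  rat : φ.RatS K L
  sing : φ.RSing K L
  dim : 6 ≤ finrank F V
  herm : φ.IsHerm
  two : (2 : F) ≠ 0
  fix : ∀ a, a ∈ K ↔ φ.σ a = a
  θ0 : θ ≠ 0
  θσ : φ.σ θ = -θ
  mem : ∀ p ∈ L, ∀ w ∈ L, ∀ s ∈ K, φ.Q p = 0 → φ.B p w = 0 → φ.T s = φ.Q w → φ.siegel p w s ∈ M

omit [Finite F] in
/-- the vectors occurring in Siegel maps with centre `p` -/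
def AS (M : Subgroup φ.Isom) {p : V} (hp : φ.Q p = 0) : AddSubgroup V :=
  AddSubgroup.ofSub {u | InA M p u} ⟨0, by simp, 0, by simp, by rw [φ.siegel_zero hp]; exact M.one_mem⟩
    fun _ a _ b => by rw [← sub_eq_add_neg]; exact a.sub hp b

namespace RO
variable {K : Subfield F} {L : Submodule K V} {M : Subgroup φ.Isom} {θ : F} (h : RO φ K L M θ)
  {p u w z y b : V} {s c : F} {g k : φ.Isom}
include h

omit [Finite F] in
theorem sg (hp : φ.Q p = 0) (hw : φ.B p w = 0) (hs : φ.T s = φ.Q w) (x : V) :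
    (φ.siegel p w s).1 x = x + φ.B w x • p - φ.B p x • w - (s * φ.B p x) • p := by
  rw [φ.siegel_apply hp hw hs, h.herm.ε_eq, one_mul, one_mul]

omit [Finite F] in
theorem skew0 (hc : c ∈ K) (h1 : φ.σ c = -c) : c = 0 := by
  have := (h.fix c).1 hc
  exact (mul_eq_zero.1 (show 2 * c = 0 by linear_combination h1 - this)).resolve_left h.two

omit [Finite F] in
theorem z2 {a d : F} (ha : a ∈ K) (hd : d ∈ K) (e : a + θ * d = 0) : a = 0 ∧ d = 0 := by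
  have h1 : θ * d = 0 := h.skew0 (by rw [show θ * d = -a by linear_combination e]; exact K.neg_mem ha)
    (by rw [map_mul, h.θσ, (h.fix d).1 hd, neg_mul])
  exact ⟨by linear_combination e - h1, (mul_eq_zero.1 h1).resolve_left h.θ0⟩

omit [Finite F] in
theorem dec (v : V) : ∃ a ∈ L, ∃ b ∈ L, v = a + θ • b := by
  have h2 := h.two
  have h0 := h.θ0
  let A : Submodule F V :=
    { carrier := {x | ∃ a ∈ L, ∃ b ∈ L, x = a + θ • b}
      zero_mem' := ⟨0, L.zero_mem, 0, L.zero_mem, by simp⟩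
      add_mem' := by
        rintro _ _ ⟨a, ha, b, hb, rfl⟩ ⟨a', ha', b', hb', rfl⟩
        exact ⟨_, L.add_mem ha ha', _, L.add_mem hb hb', by module⟩
      smul_mem' := by
        rintro c _ ⟨a, ha, b, hb, rfl⟩
        have h1 : (c + φ.σ c) / 2 ∈ K := (h.fix _).2 (by simp [map_ofNat, add_comm])
        have h3 : (c - φ.σ c) / (2 * θ) ∈ K := (h.fix _).2 (by simp [map_ofNat, h.θσ]; field_simp; ring)
        have h4 : θ * θ ∈ K := (h.fix _).2 (by simp [h.θσ])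
        refine ⟨_, L.add_mem (RatS.smul_mem h1 ha) (RatS.smul_mem (K.mul_mem h4 h3) hb), _,
          L.add_mem (RatS.smul_mem h3 ha) (RatS.smul_mem h1 hb), ?_⟩
        match_scalars <;> field_simp <;> ring }
  exact h.rat.mem_of_le (A := A) (fun x hx => ⟨x, hx, 0, L.zero_mem, by simp⟩) v

omit [Finite F] in
theorem comm (hx : u ∈ L) (hy : w ∈ L) : φ.B u w = φ.B w u := by
  rw [h.herm.B_comm w u, (h.fix _).1 (h.rat.B_mem _ hy _ hx)]

omit [Finite F] in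
theorem half (hu : u ∈ L) : φ.Q u / 2 ∈ K ∧ φ.T (φ.Q u / 2) = φ.Q u := by
  have h1 := K.div_mem (h.rat.Q_mem u hu) (ofNat_mem K 2)
  refine ⟨h1, ?_⟩
  have := h.two
  rw [h.herm.T_eq, (h.fix _).1 h1]; field_simp; ring

omit [Finite F] in
theorem sgm (hp : p ∈ L) (hu : u ∈ L) (hQ : φ.Q p = 0) (h0 : φ.B p u = 0) : φ.siegel p u (φ.Q u / 2) ∈ M :=
  h.mem p hp u hu _ (h.half hu).1 hQ h0 (h.half hu).2

theorem exo (l : List V) (hl : ∀ x ∈ l, x ∈ L) (hp : p ∈ L) (hw : w ∈ L) (hn : l.length ≤ 3) :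
    ∃ e ∈ L, e ∉ Submodule.span F {p, w} ∧ ∀ x ∈ l, φ.B x e = 0 := by
  have := h.rat.nondeg
  have := RatS.finiteDim (L := L)
  lift l to List L using hl
  obtain ⟨e, -, h7, h3⟩ := h.rat.form.exists_orth ⊤ (Submodule.span K {⟨p, hp⟩, ⟨w, hw⟩}) l (by
    have := finrank_span_pair_le (F := K) (⟨p, hp⟩ : L) ⟨w, hw⟩
    have := h.dim
    simp [h.rat.rank] at hn ⊢; omega)
  refine ⟨e, e.2, fun h0 => ?_, by simpa using fun x hx hx' => congrArg Subtype.val (h3 ⟨x, hx⟩ hx')⟩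
  obtain ⟨v, h9, h10⟩ := h.rat.form.exists_sep h7
  obtain ⟨a, c, h11⟩ := Submodule.mem_span_pair.1 h0
  have h12 : φ.B v p = 0 := congrArg Subtype.val (h9 ⟨p, hp⟩ (Submodule.subset_span (by simp)))
  have h14 : φ.B v w = 0 := congrArg Subtype.val (h9 ⟨w, hw⟩ (Submodule.subset_span (by simp)))
  have h13 : φ.B v e = 1 := congrArg Subtype.val h10
  simp [← h11, h12, h14] at h13

theorem sep2 (hp : p ∈ L) (hz : z ∈ L) (hu : u ∈ L) (h1 : u ∉ Submodule.span F {p, z}) :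
    ∃ w ∈ L, φ.B w p = 0 ∧ φ.B w z = 0 ∧ φ.B w u = 1 :=
  (h.rat.exists_sep hu h1).imp fun _ a => ⟨a.1, a.2.1 p hp (Submodule.subset_span (by simp)),
    a.2.1 z hz (Submodule.subset_span (by simp)), a.2.2⟩

theorem sep1 (hp : p ∈ L) (hu : u ∈ L) (h1 : u ∉ F ∙ p) : ∃ w ∈ L, φ.B w p = 0 ∧ φ.B w u = 1 :=
  (h.rat.exists_sep hu h1).imp fun _ a => ⟨a.1, a.2.1 p hp (Submodule.mem_span_singleton_self p), a.2.2⟩

theorem nons (hp : p ∈ L) (hz : z ∈ L) : ∃ w ∈ L, φ.B p w = 0 ∧ φ.B z w = 0 ∧ φ.Q w ≠ 0 := by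
  obtain ⟨a, ha, h1, h2⟩ := h.exo [p, z] (by simp [hp, hz]) hp hz (by simp)
  simp only [List.mem_cons, List.not_mem_nil, or_false, forall_eq_or_imp, forall_eq] at h2
  obtain ⟨b, hb, h3, h4, h5⟩ := h.sep2 hp hz ha h1
  by_cases q1 : φ.Q a = 0
  · by_cases q2 : φ.Q b = 0
    · refine ⟨b + a, L.add_mem hb ha, by simp [h2, φ.B_symm_zero h3], by simp [h2, φ.B_symm_zero h4], ?_⟩
      rw [φ.Q_add, q1, q2, h5, h.herm.T_eq, map_one, zero_add, zero_add, one_add_one_eq_two]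
      exact h.two
    · exact ⟨b, hb, φ.B_symm_zero h3, φ.B_symm_zero h4, q2⟩
  · exact ⟨a, ha, h2.1, h2.2, q1⟩

theorem hyp (hp : p ∈ L) : ∃ e ∈ L, ∃ f ∈ L, φ.IsHyp e f ∧ φ.B p e = 0 ∧ φ.B p f = 0 ∧ e ∉ F ∙ p := by
  obtain ⟨e, he, h1, h2, h3⟩ := h.rat.exists_sing h.sing [p] (by simpa) hp (by have := h.dim; simp; omega)
  obtain ⟨w, hw, h4, h5⟩ := h.sep1 hp he h2
  obtain ⟨a, ha, hyp⟩ := h.rat.isHyp_of_B he hw h1 ((h.comm he hw).trans h5)
  exact ⟨e, he, _, L.add_mem hw (RatS.smul_mem ha he), hyp, h3 p (by simp),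
    by simp [h3 p (by simp), φ.B_symm_zero h4], h2⟩

theorem exs (hp : p ∈ L) (hb : b ∈ L) (h1 : b ∉ F ∙ p) : ∃ z ∈ L, φ.Q z = 0 ∧ φ.B p z = 0 ∧ φ.B z b ≠ 0 := by
  by_contra! H
  obtain ⟨e, he, f, hf, hyp, h2, h3, -⟩ := h.hyp hp
  obtain ⟨y, hy, h4, h5⟩ := h.sep1 hp hb h1
  have h6 := L.sub_mem (L.sub_mem hy (RatS.smul_mem (h.rat.B_mem _ hf _ hy) he)) (RatS.smul_mem (h.rat.B_mem _ he _ hy) hf)
  obtain ⟨h7, h8⟩ := h.half h6
  have h9 := hyp.proj_mem y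
  rw [h.herm.ε_eq, one_mul] at h9
  have h10 := H _ (L.add_mem (L.add_mem he (RatS.smul_mem (K.neg_mem h7) hf)) h6)
    (by simpa [h8] using hyp.Q_comb 1 (-(φ.Q (y - φ.B f y • e - φ.B e y • f) / 2)) h9)
    (by simp [h2, h3, φ.B_symm_zero h4])
  simp [H e he hyp.Qe h2, H f hf hyp.Qf h3, h5] at h10

section irr
variable (hp : p ∈ L) (hQ : φ.Q p = 0)
include hp

omit [Finite F] hp in
theorem sD (hb : θ • b ∈ AS M hQ) (hz : z ∈ L) (hw : w ∈ L) (h1 : φ.Q z = 0) (h2 : φ.B p z = 0) (h3 : φ.B p w = 0)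
    (h4 : φ.B z w = 0) : θ • (φ.B w b • z - φ.B z b • w - (φ.Q w / 2 * φ.B z b) • z) ∈ AS M hQ := by
  have h5 := InA.map hQ hb (h.sgm hz hw h1 h4)
  rw [siegel_apply_of_orth h1 h4 (h.half hw).2 (φ.B_symm_zero h2) (φ.B_symm_zero h3), map_smul,
    h.sg h1 h4 (h.half hw).2] at h5
  convert sub_mem (show _ ∈ AS M hQ from h5) hb using 1
  module

theorem sL (hb : θ • b ∈ AS M hQ) (hb' : b ∈ L) (hz : z ∈ L) (h1 : φ.Q z = 0) (h2 : φ.B p z = 0) (h3 : φ.B z b ≠ 0)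
    (hc : c ∈ K) : θ • c • z ∈ AS M hQ := by
  obtain ⟨w, hw, h4, h5, h6⟩ := h.nons hp hz
  have h2' := h.two
  have H : ∀ l ∈ K, (θ * (l * l * (φ.Q w * φ.B z b))) • z ∈ AS M hQ := fun l hl => by
    have a1 := h.sD hQ hb hz (RatS.smul_mem hl hw) h1 h2 (by simp [h4]) (by simp [h5])
    have a2 := h.sD hQ hb hz (L.neg_mem (RatS.smul_mem hl hw)) h1 h2 (by simp [h4]) (by simp [h5])
    convert neg_mem (add_mem a1 a2) using 1
    simp only [Q_neg, φ.Q_smul, (h.fix l).1 hl, map_neg, LinearMap.neg_apply]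
    match_scalars <;> field_simp <;> ring
  have h7 : c / (2 * (φ.Q w * φ.B z b)) ∈ K :=
    K.div_mem hc (K.mul_mem (ofNat_mem K 2) (K.mul_mem (h.rat.Q_mem w hw) (h.rat.B_mem _ hz _ hb')))
  convert sub_mem (sub_mem (H _ (K.add_mem h7 K.one_mem)) (H _ h7)) (H _ K.one_mem) using 1
  match_scalars
  field_simp
  ring

theorem irr (hb : θ • b ∈ AS M hQ) (hb' : b ∈ L) (h1 : b ∉ F ∙ p) (hy : y ∈ L) (h2 : φ.B p y = 0) :
    θ • y ∈ AS M hQ := by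
  have h0 : φ.B p b = 0 := by simpa [h.θ0] using (show InA M p (θ • b) from hb).1
  obtain ⟨z, hz, z1, z2, z3⟩ := h.exs hp hb' h1
  obtain ⟨z', hz', y1, y2, y3⟩ := h.exs hp hz fun e => by
    obtain ⟨a, rfl⟩ := Submodule.mem_span_singleton.1 e
    simp [h0] at z3
  have h3 : ∀ w ∈ L, φ.B p w = 0 → φ.B z w = 0 → θ • w ∈ AS M hQ := fun w hw a1 a2 => by
    have a3 := RatS.smul_mem (K.inv_mem (h.rat.B_mem _ hz _ hb')) hw
    have a4 := h.sD hQ hb hz a3 z1 z2 (by simp [a1]) (by simp [a2])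
    convert sub_mem (h.sL hp hQ hb hb' hz z1 z2 z3 (K.sub_mem (h.rat.B_mem _ a3 _ hb')
      (K.mul_mem (h.half a3).1 (h.rat.B_mem _ hz _ hb')))) a4 using 1
    rw [smul_smul (φ.B z b), mul_inv_cancel₀ z3]
    module
  have h4 : φ.B z z' ≠ 0 := fun e => y3 (φ.B_symm_zero e)
  have h5 := K.div_mem (h.rat.B_mem _ hz _ hy) (h.rat.B_mem _ hz _ hz')
  convert add_mem (h3 _ (L.sub_mem hy (RatS.smul_mem h5 hz')) (by simp [h2, y2]) (by simp [h4]))
    (h.sL hp hQ (by simpa using h.sL hp hQ hb hb' hz z1 z2 z3 K.one_mem) hz hz' y1 y2 y3 h5) using 1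
  module

theorem E_le (p0 : p ≠ 0) (hb : θ • b ∈ AS M hQ) (hb' : b ∈ L) (h1 : b ∉ F ∙ p) : φ.E ≤ M := by
  have h2 := h.two
  have H : ∀ u, φ.B p u = 0 → InA M p u := fun u hu => by
    obtain ⟨a, ha, d, hd, rfl⟩ := h.dec u
    obtain ⟨a1, a2⟩ := h.z2 (h.rat.B_mem _ hp _ ha) (h.rat.B_mem _ hp _ hd) (by simpa using hu)
    exact add_mem (show a ∈ AS M hQ from ⟨a1, _, (h.half ha).2, h.sgm hp ha hQ a1⟩) (h.irr hp hQ hb hb' h1 hd a2)
  have hX : ∀ t, φ.T t = 0 → φ.siegel p 0 t ∈ M := fun t ht => by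
    obtain ⟨e, -, f, -, hyp, a1, a2, -⟩ := h.hyp hp
    obtain ⟨b1, s, b2, b3⟩ := H e a1
    obtain ⟨c1, s', c2, c3⟩ := H ((t / 2) • f) (by simp [a2])
    have := siegel_commutator hQ b1 b2 c1 c2
    rw [h.herm.T_eq] at ht
    rw [show φ.B e ((t / 2) • f) - φ.B ((t / 2) • f) e = t by
      simp only [map_smul, hyp.Bef, B_smul_left, hyp.Bfe, h.herm.ε_eq, map_div₀, map_ofNat, smul_eq_mul,
        eq_neg_of_add_eq_zero_right ht]
      field_simp; ring] at this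
    rw [← this]
    exact M.mul_mem (M.mul_mem (M.mul_mem b3 c3) (M.inv_mem b3)) (M.inv_mem c3)
  have h3 : φ.Full M p := full_of_le_sgSub (hp := hQ) (hX := hX) fun y hy =>
    ⟨φ.mem_perp_singleton.1 hy, fun c => (H _ (by simp [φ.mem_perp_singleton.1 hy])).2⟩
  obtain ⟨f, hf, hyp⟩ := h.rat.exists_partner hp hQ p0
  obtain ⟨w, hw, a1, a2, a3⟩ := h.nons hp hf
  refine h3.E_le hQ (h.sgm hf hw hyp.Qf a2) ?_
  rw [h.sg hyp.Qf a2 (h.half hw).2]
  simp [hyp.Bee, hyp.Bef, hyp.Bfe, h.herm.ε_eq, a1, φ.B_symm_zero a1, a3, h2]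

end irr

variable (hE : ¬ φ.E ≤ M)
include hE

theorem hU (hp : p ∈ L) (hQ : φ.Q p = 0) (p0 : p ≠ 0) (hu : InA M p u) : ∃ d : F, u + d • p ∈ L := by
  obtain ⟨a, ha, b, hb, rfl⟩ := h.dec u
  obtain ⟨a1, -⟩ := h.z2 (h.rat.B_mem _ hp _ ha) (h.rat.B_mem _ hp _ hb) (by simpa using hu.1)
  by_cases q : b ∈ F ∙ p
  · obtain ⟨c, rfl⟩ := Submodule.mem_span_singleton.1 q
    exact ⟨-(θ * c), by convert ha using 1; module⟩
  · refine absurd (h.E_le hp hQ p0 ?_ hb q) hE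
    simpa using sub_mem (show _ ∈ AS M hQ from hu) (show a ∈ AS M hQ from ⟨a1, _, (h.half ha).2, h.sgm hp ha hQ a1⟩)

theorem hZ (hp : p ∈ L) (hQ : φ.Q p = 0) (p0 : p ≠ 0) {t : F} (ht : φ.T t = 0) (h1 : φ.siegel p 0 t ∈ M) : t = 0 := by
  obtain ⟨z, hz, f, -, hyp, a1, -, a2⟩ := h.hyp hp
  obtain ⟨w, hw, b1, b2⟩ := h.sep1 hz hp (not_mem_span_singleton_symm p0 a2)
  have ht' : φ.T t = φ.Q 0 := by simpa using ht
  have hs : φ.σ t = -t := by rw [h.herm.T_eq] at ht; exact eq_neg_of_add_eq_zero_right ht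
  have h2 := siegel_conj_mem (h.sgm hz hw hyp.Qe (φ.B_symm_zero b1)) hQ (by simp) ht' h1
  rw [map_zero, h.sg hyp.Qe (φ.B_symm_zero b1) (h.half hw).2, b2, φ.B_symm_zero a1] at h2
  simp only [one_smul, zero_smul, mul_zero, sub_zero] at h2
  have q1 : φ.Q (p + z) = 0 := by rw [φ.Q_add_of_orth a1, hQ, hyp.Qe, add_zero]
  have q2 : φ.B z (t • p) = 0 := by simp [φ.B_symm_zero a1]
  have q3 : φ.T t = φ.Q (t • p) := by rw [φ.Q_smul_of_sing hQ, ht]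
  obtain ⟨d, hd⟩ := h.hU hE hz hyp.Qe hyp.e_ne_zero (u := t • p) ⟨q2, t, q3, by
    convert M.mul_mem h2 (M.inv_mem h1) using 1
    rw [eq_mul_inv_iff_mul_eq]
    refine Isom.ext fun x => ?_
    rw [Isom.mul_apply, h.sg hyp.Qe q2 q3, h.sg hQ (by simp) ht', h.sg q1 (by simp) ht']
    simp [hs, φ.B_self_eq_zero hQ, φ.B_symm_zero a1]
    module⟩
  exact h.skew0 (by simpa [b1, b2] using h.rat.B_mem _ hw _ hd) hs

theorem ratU (hp : p ∈ L) (hQ : φ.Q p = 0) (p0 : p ≠ 0) (h1 : φ.B p u = 0) (h2 : φ.T s = φ.Q u) (h3 : φ.σ s = s)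
    (h4 : φ.siegel p u s ∈ M) : u ∈ L := by
  obtain ⟨d, hd⟩ := h.hU hE hp hQ p0 ⟨h1, s, h2, h4⟩
  have q1 : φ.B p (u + d • p) = 0 := by simp [h1, φ.B_self_eq_zero hQ]
  have q2 : φ.Q (u + d • p) = φ.Q u := by
    rw [φ.Q_add_of_orth (by simp [φ.B_symm_zero h1]), φ.Q_smul_of_sing hQ, add_zero]
  have q3 : φ.T (d - φ.σ d) = 0 := by simp [h.herm.T_eq]
  have q4 := h.mem p hp _ hd s ((h.fix s).2 h3) hQ q1 (h2.trans q2.symm)
  have q5 := h.hZ hE hp hQ p0 q3 (by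
    convert M.mul_mem q4 (M.inv_mem h4) using 1
    rw [eq_mul_inv_iff_mul_eq]
    refine Isom.ext fun x => ?_
    rw [Isom.mul_apply, h.sg hQ (by simp) (by simpa using q3), h.sg hQ h1 h2, h.sg hQ q1 (h2.trans q2.symm)]
    simp [h1, φ.B_self_eq_zero hQ]
    module)
  simpa using L.sub_mem hd (RatS.smul_mem ((h.fix d).2 (sub_eq_zero.1 q5).symm) hp)

theorem pt1 (hk : k ∈ M) (hp : p ∈ L) (hQ : φ.Q p = 0) (p0 : p ≠ 0) (c0 : c ≠ 0) (e : c • k.1 p ∈ L) (hu : u ∈ L)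
    (h1 : φ.B p u = 0) : c • k.1 u ∈ L := by
  have h2 := siegel_conj_mem hk hQ h1 (h.half hu).2 (h.sgm hp hu hQ h1)
  have q1 : φ.Q (c • k.1 p) = 0 := φ.Q_smul_of_sing (by simpa using hQ) c
  have q2 : φ.B (c • k.1 p) (k.1 u) = 0 := by simp [h1]
  have q3 : φ.T (φ.Q u / 2) = φ.Q (k.1 u) := by simpa using (h.half hu).2
  rw [show k.1 p = c⁻¹ • c • k.1 p by rw [inv_smul_smul₀ c0], siegel_smul q1 q2 q3] at h2
  have h3 := h.ratU hE e q1 (by simpa [c0] using p0) (by simp [h1]) (by simpa [mul_comm] using T_smul q3 (φ.σ c⁻¹))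
    (by simp only [map_mul, σ_σ, (h.fix _).1 (h.half hu).1]; ring) h2
  have h4 : φ.σ c ≠ 0 := by simpa using c0
  convert RatS.smul_mem ((h.fix (φ.σ c * c)).2 (by simp [mul_comm])) h3 using 1
  rw [smul_smul, map_inv₀]
  congr 1
  field_simp

theorem pt (hk : k ∈ M) (hp : p ∈ L) (hQ : φ.Q p = 0) (p0 : p ≠ 0) (c0 : c ≠ 0) (e : c • k.1 p ∈ L) :
    ∀ x ∈ L, c • k.1 x ∈ L := fun x hx => by
  obtain ⟨z, hz, f, -, hyp, a1, -, a2⟩ := h.hyp hp
  obtain ⟨w, hw, b1, b2⟩ := h.sep1 hz hp (not_mem_span_singleton_symm p0 a2)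
  have i := h.rat.B_mem _ hp _ hx
  have := add_mem (h.pt1 hE hk hp hQ p0 c0 e (sub_mem hx (RatS.smul_mem i hw)) (by simp [h.comm hp hw, b2]))
    (RatS.smul_mem i (h.pt1 hE hk hz hyp.Qe hyp.e_ne_zero c0 (h.pt1 hE hk hp hQ p0 c0 e hz a1) hw (φ.B_symm_zero b1)))
  convert this using 1
  simp only [map_sub, map_smul]; module

theorem fin (hg : g ∈ M) : ∃ c : F, c ≠ 0 ∧ ∀ x ∈ L, c • g.1 x ∈ L := by
  have hd := h.dim
  obtain ⟨y, hy, y', -, hyp, -⟩ := h.hyp L.zero_mem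
  obtain ⟨a, ha, b, hb, e1⟩ := h.dec ((g⁻¹).1 y)
  obtain ⟨p, hp, p', -, hyp', h1, -⟩ := h.rat.exists_hyp h.sing [a, b] [] (by simp [ha, hb]) (by simp) (by simp; omega)
  simp only [List.mem_cons, List.not_mem_nil, or_false, forall_eq_or_imp, forall_eq] at h1
  obtain ⟨a', ha', b', hb', e2⟩ := h.dec (g.1 p)
  have o : ∀ w, φ.B a w = 0 → φ.B b w = 0 → φ.B (g.1 w) y = 0 := fun w i j => by
    rw [← Isom.apply_inv_apply g y, Isom.B_map, e1]
    simp [φ.B_symm_zero i, φ.B_symm_zero j]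
  by_contra H
  have key : ∀ w ∈ L, φ.B a w = 0 → φ.B b w = 0 → φ.B p w = 0 → g.1 w ∈ Submodule.span F {a', b'} := fun w hw i j m => by
    have q1 : φ.Q (g.1 p) = 0 := by simpa using hyp'.Qe
    have q2 : φ.B (g.1 p) (g.1 w) = 0 := by simpa using m
    have q3 : φ.T (φ.Q w / 2) = φ.Q (g.1 w) := by simpa using (h.half hw).2
    have h2 := h.pt hE (siegel_conj_mem hg hyp'.Qe m (h.half hw).2 (h.sgm hp hw hyp'.Qe m)) hy hyp.Qe hyp.e_ne_zero
      one_ne_zero (by rwa [siegel_apply_of_orth q1 q2 q3 (o p h1.1 h1.2) (o w i j), one_smul])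
    have h3 : ∀ x ∈ L, φ.B x a' = 0 → φ.B x b' = 0 → φ.B x (g.1 w) = 0 := fun x hx r1 r2 => by
      by_contra r3
      have r4 : φ.B (g.1 p) x = 0 := φ.B_symm_zero (by simp [e2, r1, r2])
      have r5 := L.sub_mem (h2 x hx) hx
      rw [h.sg q1 q2 q3, r4] at r5
      exact H ⟨φ.B (g.1 w) x, fun e => r3 (φ.B_symm_zero e),
        h.pt hE hg hp hyp'.Qe hyp'.e_ne_zero (fun e => r3 (φ.B_symm_zero e)) (by simpa using r5)⟩
    obtain ⟨c, hc, d, hd, e3⟩ := h.dec (g.1 w)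
    have h4 : ∀ x ∈ L, φ.B x a' = 0 → φ.B x b' = 0 → φ.B x c = 0 ∧ φ.B x d = 0 := fun x hx r1 r2 =>
      h.z2 (h.rat.B_mem _ hx _ hc) (h.rat.B_mem _ hx _ hd) (by simpa [e3] using h3 x hx r1 r2)
    rw [e3]
    refine add_mem ?_ (Submodule.smul_mem _ _ ?_) <;> by_contra r
    · obtain ⟨x, hx, r1, r2, r3⟩ := h.sep2 ha' hb' hc r
      simp [(h4 x hx r1 r2).1] at r3
    · obtain ⟨x, hx, r1, r2, r3⟩ := h.sep2 ha' hb' hd r
      simp [(h4 x hx r1 r2).2] at r3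
  obtain ⟨w, hw, w1, w2⟩ := h.exo [a, b, p] (by simp [ha, hb, hp]) hp hp (by simp)
  obtain ⟨w', hw', w3, w4⟩ := h.exo [a, b, p] (by simp [ha, hb, hp]) hp hw (by simp)
  simp only [List.mem_cons, List.not_mem_nil, or_false, forall_eq_or_imp, forall_eq] at w2 w4
  obtain ⟨α, β, f1⟩ := Submodule.mem_span_pair.1 (key p hp h1.1 h1.2 hyp'.Bee)
  obtain ⟨α', β', f2⟩ := Submodule.mem_span_pair.1 (key w hw w2.1 w2.2.1 w2.2.2)
  obtain ⟨α'', β'', f3⟩ := Submodule.mem_span_pair.1 (key w' hw' w4.1 w4.2.1 w4.2.2)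
  by_cases q : α * β' - α' * β = 0
  · refine w1 (Submodule.span_mono (s := {p}) (by simp) ?_)
    by_cases q1 : α = 0
    · have q2 : β ≠ 0 := by
        rintro rfl
        exact hyp'.e_ne_zero (g.1.injective (by rw [← f1, q1]; simp))
      have q3 : α' = 0 := by simpa [q1, q2] using q
      exact Submodule.mem_span_singleton.2 ⟨β' / β, g.1.injective (by
        rw [map_smul, ← f1, ← f2, q1, q3, zero_smul, zero_add, zero_add, smul_smul, div_mul_cancel₀ _ q2])⟩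
    · exact Submodule.mem_span_singleton.2 ⟨α' / α, g.1.injective (by
        rw [map_smul, ← f1, ← f2]; match_scalars
        · field_simp
        · field_simp; linear_combination -q)⟩
  · rw [← Submodule.smul_mem_iff _ q] at w3
    exact w3 (Submodule.mem_span_pair.2 ⟨α'' * β' - α' * β'', α * β'' - α'' * β, g.1.injective (by
        rw [map_add, map_smul, map_smul, map_smul, ← f1, ← f2, ← f3]; module)⟩)

end RO

open Matrix Cfsg Cfsg.Geo in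
theorem su_subf_o6 {F : Type*} [Field F] [Fintype F] {q n : ℕ} (hF : Fintype.card F = q ^ 2) (hn : 6 ≤ n) (hodd : Odd q)
    (F₀ : Subfield F) (hcard : Fintype.card F = Nat.card F₀ ^ 2) (P : Matrix.GeneralLinearGroup (Fin n) F)
    (hP : Cfsg.Geo.IsFormRationalStructure (Cfsg.hermForm n F q) F₀ 1 P) :
    Cfsg.Geo.IsMaximalIn (Cfsg.GU n F q ⊓ Cfsg.Geo.specialLinear (Fin n) F)
      (Cfsg.Geo.subfieldSubgroup F₀ P ⊓ (Cfsg.GU n F q ⊓ Cfsg.Geo.specialLinear (Fin n) F)) := by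
  have hF' : Nat.card F = q ^ 2 := by rw [Nat.card_eq_fintype_card, hF]
  have h0 := H10.stdU_isUnitary hF' n
  have hK := H10.finrank_eq_of_card hcard
  have h1 : ∀ a ∈ F₀, (H10.stdU hF' n).σ a = a := fun a ha => by
    have := Fintype.ofFinite F₀
    rw [h0.σ_eq, Nat.pow_left_injective two_ne_zero (hF.symm.trans hcard), Nat.card_eq_fintype_card]
    exact congrArg Subtype.val (FiniteField.pow_card (⟨a, ha⟩ : F₀))
  have h2 : (2 : F) ≠ 0 := H10.two_ne_zero_of_odd_card (hF ▸ hodd.pow)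
  have h3 : ∀ a, a ∈ F₀ ↔ (H10.stdU hF' n).σ a = a := fun a => ⟨h1 a, fun ha => by
    have := Subalgebra.isSimpleOrder_of_finrank_prime F₀ F (hK ▸ Nat.prime_two)
    let A : Subalgebra F₀ F :=
      { (H10.stdU hF' n).σ.eqLocus (RingHom.id F) with algebraMap_mem' := fun a => h1 a a.2 }
    rcases eq_bot_or_eq_top A with h3 | h3
    · obtain ⟨b, rfl⟩ := Algebra.mem_bot.1 (h3.le ha)
      exact b.2
    · obtain ⟨b, hb⟩ := h0.exists_σ_ne
      exact absurd (h3.ge Algebra.mem_top) hb⟩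
  have h4 : (H10.stdU hF' n).RatS F₀ (H10.ratL F₀ P) :=
    H10.ratS_of (fun a ha => (h1 a ha).symm ▸ ha)
      (fun u v hu hv => by simpa [H10.stdU_B] using hP v u hv hu)
      (fun u hu => by simpa [H10.stdU_Q] using hP u u hu hu)
      (fun a ha => by rw [h0.herm.T_eq, h1 a ha]; exact F₀.add_mem ha ha) fun x _ hx => by
        have := F₀.div_mem hx (F₀.add_mem F₀.one_mem F₀.one_mem)
        refine ⟨_, this, ?_⟩
        rw [h0.herm.T_eq, h1 _ this, one_add_one_eq_two]; field_simp; ring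
  have h5 : (H10.stdU hF' n).RSing F₀ (H10.ratL F₀ P) := fun W hW => by
    obtain ⟨v, h8, h9, h10⟩ := (H10.Form.isQuad_ofQuad (LinearMap.BilinMap.toQuadraticMap
      (LinearMap.mk₂ F₀ (fun x y => h4.form.B x y) (by simp) (fun c x y => Subtype.ext (by
        simp [h1 c c.2])) (by simp) (by simp)))).exists_singular hW
    exact ⟨v, h8, h9, (h0.herm.Q_eq _).trans (congrArg Subtype.val h10)⟩
  obtain ⟨θ, θ0, θ1⟩ := h0.exists_skew
  have θ2 : (H10.stdU hF' n).σ θ = -θ := by rw [h0.herm.T_eq] at θ1; exact eq_neg_of_add_eq_zero_right θ1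
  rw [H10.SU_eq_E hF' (by omega)]
  set φ := H10.stdU hF' n
  have mk : ∀ M : Subgroup φ.Isom, (∀ p ∈ H10.ratL F₀ P, ∀ w ∈ H10.ratL F₀ P, ∀ s ∈ F₀, φ.Q p = 0 → φ.B p w = 0 →
      φ.T s = φ.Q w → φ.siegel p w s ∈ M) → RO φ F₀ (H10.ratL F₀ P) M θ := fun M hM =>
    ⟨h4, h5, by simpa using hn, h0.herm, h2, h3, θ0, θ2, hM⟩
  refine isMaximalIn_map _ (fun h6 => ?_) fun M hM g hg _ hg' => ?_
  · have t := mk ⊤ fun _ _ _ _ _ _ _ _ _ => trivial
    obtain ⟨p, hp, f, hf, hyp, -⟩ := t.hyp (zero_mem _)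
    have q3 : φ.T θ = φ.Q 0 := by simpa using θ1
    obtain ⟨d, hd, h7⟩ := mem_subfieldSubgroup_iff.1 (h6 (φ.siegel_mem_E (p := p) hyp.Qe (by simp) q3))
    simp only [toGL_mulVec] at h7
    have h8 := h4.B_mem _ hf _ (h7 p hp)
    have h9 := h4.B_mem _ hf _ (h7 f hf)
    rw [Form.siegel_apply_self hyp.Qe (by simp) q3] at h8
    rw [t.sg hyp.Qe (by simp) q3] at h9
    simp [hyp.Bef, hyp.Bfe, hyp.Bff, h0.herm.ε_eq] at h8 h9
    exact θ0 (t.skew0 (Form.mem_of_mul_mem h9 h8 hd) θ2)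
  · by_contra hE
    refine hg' (mem_subfieldSubgroup_iff.2 ?_)
    simpa only [toGL_mulVec] using (mk M fun p hp w hw s hs a1 a2 a3 =>
      hM ⟨φ.siegel_mem_E a1 a2 a3, mem_subfieldSubgroup_iff.2 ⟨1, one_ne_zero, fun x hx => by
        rw [toGL_mulVec, one_smul, φ.siegel_apply a1 a2 a3]
        exact sub_mem (sub_mem (add_mem hx (Form.RatS.smul_mem (h4.B_mem _ hw _ hx) hp))
          (Form.RatS.smul_mem (F₀.mul_mem h4.ε_mem (h4.B_mem _ hp _ hx)) hw))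
          (Form.RatS.smul_mem (F₀.mul_mem (F₀.mul_mem h4.ε_mem hs) (h4.B_mem _ hp _ hx)) hp)⟩⟩).fin hE hg

theorem su6_11 {F : Type*} [Field F] [Fintype F] {q : ℕ} (hF : Fintype.card F = q ^ 2) :
    (Odd q → ∀ (F₀ : Subfield F) (P : Matrix.GeneralLinearGroup (Fin 6) F), Fintype.card F = Nat.card F₀ ^ 2 → Cfsg.Geo.IsFormRationalStructure (Cfsg.hermForm 6 F q) F₀ 1 P → Cfsg.Geo.IsMaximalIn (Cfsg.GU 6 F q ⊓ Cfsg.Geo.specialLinear (Fin 6) F) (Cfsg.Geo.subfieldSubgroup F₀ P ⊓ (Cfsg.GU 6 F q ⊓ Cfsg.Geo.specialLinear (Fin 6) F))) :=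
  fun o F₀ P a => su_subf_o6 hF le_rfl o F₀ a P

end H22.Su
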