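import Cfsg.Agent.H28.Ea2

/-!
# Fixed space counts for elementary abelian `l`-subgroups of alternating sections
-/

set_option autoImplicit false

open Module Equiv Equiv.Perm

namespace H22.Cn
open H28.Al H28.Ea

universe u v

section grp
variable {G A : Type*} [Group G] [Group A] {l : ℕ} [Fact l.Prime]

theorem injP [Finite G] (φ : G →* A) (hK : ¬ l ∣ Nat.card φ.ker) {x : G} {n : ℕ} (hx : x ^ l ^ n = 1)
    (h : φ x = 1) : x = 1 := by
  obtain ⟨m, -, hm⟩ := (Nat.dvd_prime_pow Fact.out).1 (orderOf_dvd_of_pow_eq_one hx)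
  have h4 : orderOf x ∣ Nat.card φ.ker := Subgroup.orderOf_dvd_natCard _ h
  obtain _ | m := m
  · exact orderOf_eq_one_iff.1 hm
  · exact absurd ((Dvd.intro_left _ (pow_succ l m).symm).trans (hm ▸ h4)) hK

theorem secL [Finite G] (φ : G →* A) (hφ : Function.Surjective φ) (hK : ¬ l ∣ Nat.card φ.ker) {E : Type*} [Group E]
    (hE : ∀ a : E, a ^ l = 1) (ι : E →* A) : ∃ s : E →* G, ∀ a, φ (s a) = ι a := by
  have := Finite.of_surjective φ hφ
  let M := ι.range.comap φ
  let P : Sylow l M := default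
  let f : M →* ι.range := (φ.comp M.subtype).codRestrict _ fun x => x.2
  have hf : Function.Surjective f := fun v => let ⟨x, hx⟩ := hφ v; ⟨⟨x, show φ x ∈ ι.range from hx ▸ v.2⟩, Subtype.ext hx⟩
  have hV : IsPGroup l ι.range := by
    rintro ⟨_, a, rfl⟩
    exact ⟨1, Subtype.ext (by change ι a ^ l ^ 1 = 1; rw [pow_one, ← map_pow, hE, map_one])⟩
  have h1 : (P.mapSurjective hf : Subgroup ι.range) = ⊤ := ((P.mapSurjective hf).3 (hV.to_subgroup ⊤) le_top).symm
  have h2 : ∀ a, ∃ x : P, φ (x : M) = ι a := fun a => by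
    obtain ⟨x, hx, e⟩ := h1.ge (Subgroup.mem_top (⟨_, a, rfl⟩ : ι.range))
    exact ⟨⟨x, hx⟩, congrArg Subtype.val e⟩
  choose s hs using h2
  have h3 : Function.Injective (φ.comp (M.subtype.comp (P : Subgroup M).subtype)) :=
    (injective_iff_map_eq_one _).2 fun x hx => by
      obtain ⟨n, hn⟩ := P.isPGroup' x
      exact Subtype.ext (Subtype.ext (injP φ hK (n := n) (congrArg (fun y : P => ((y : M) : G)) hn) hx))
  exact ⟨(M.subtype.comp (P : Subgroup M).subtype).comp (MonoidHom.mk' s fun a b => h3 (by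
    rw [map_mul]; exact (hs _).trans (by rw [map_mul, ← hs, ← hs]; rfl))), hs⟩

theorem liftConj [Finite G] (φ : G →* A) (hK : ¬ l ∣ Nat.card φ.ker) {x y : G} (hx : x ^ l = 1) (hy : y ^ l = 1)
    (h : φ x = φ y) : IsConj x y := by
  let M := (Subgroup.zpowers (φ x)).comap φ
  have mx : x ∈ M := Subgroup.mem_zpowers _
  have my : y ∈ M := show φ y ∈ Subgroup.zpowers (φ x) from h ▸ Subgroup.mem_zpowers _
  have pg : ∀ z : M, (z : G) ^ l = 1 → IsPGroup l (Subgroup.zpowers z) := fun z hz => by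
    rintro ⟨_, n, rfl⟩
    refine ⟨1, Subtype.ext (Subtype.ext ?_)⟩
    change ((z : G) ^ n) ^ l ^ 1 = 1
    rw [pow_one, ← zpow_natCast, ← zpow_mul, mul_comm, zpow_mul, zpow_natCast, hz, one_zpow]
  obtain ⟨P, hP⟩ := (pg ⟨x, mx⟩ hx).exists_le_sylow
  obtain ⟨Q, hQ⟩ := (pg ⟨y, my⟩ hy).exists_le_sylow
  obtain ⟨m, rfl⟩ := MulAction.exists_smul_eq M P Q
  have h1 : m * ⟨x, mx⟩ * m⁻¹ ∈ ((m • P : Sylow l M) : Subgroup M) :=
    ⟨⟨x, mx⟩, hP (Subgroup.mem_zpowers _), rfl⟩
  have h2 := Subgroup.mul_mem _ h1 (Subgroup.inv_mem _ (hQ (Subgroup.mem_zpowers _)))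
  obtain ⟨n, hn⟩ := (m • P).isPGroup' ⟨_, h2⟩
  have h3 := injP φ hK (x := (m : G) * x * (m : G)⁻¹ * y⁻¹) (n := n)
    (congrArg (fun y : ((m • P : Sylow l M) : Subgroup M) => ((y : M) : G)) hn) (by
      obtain ⟨j, hj⟩ := m.2
      rw [map_mul, map_mul, map_mul, map_inv, map_inv, ← h, ← hj]
      beta_reduce
      group)
  exact isConj_iff.2 ⟨m, mul_inv_eq_one.1 h3⟩

end grp

section LA
variable {k V : Type*} [Field k] [IsAlgClosed k] [AddCommGroup V] [Module k V] [FiniteDimensional k V]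

theorem eig_span {l : ℕ} (hl : (l : k) ≠ 0) {E : Type*} (T : E → End k V) (hc : ∀ a b, T a * T b = T b * T a)
    (hs : ∀ a, T a ^ l = 1) : Submodule.span k {v | ∀ a, ∃ c : k, T a v = c • v} = ⊤ := by
  have h1 : ∀ a, (T a).IsFinitelySemisimple := fun a =>
    (Module.End.isSemisimple_of_squarefree_aeval_eq_zero (p := Polynomial.X ^ l - 1)
      (Polynomial.X_pow_sub_one_separable_iff.2 hl).squarefree (by simp [hs])).isFinitelySemisimple
  have h2 := Module.End.iSup_iInf_maxGenEigenspace_eq_top_of_iSup_maxGenEigenspace_eq_top_of_commute T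
    (fun a b _ => hc a b) fun a => Module.End.iSup_maxGenEigenspace_eq_top _
  refine top_le_iff.1 (h2.ge.trans (iSup_le fun χ v hv => Submodule.subset_span fun a => ⟨χ a, ?_⟩))
  have := (Submodule.mem_iInf _).1 hv a
  rwa [(h1 a).maxGenEigenspace_eq_eigenspace, Module.End.mem_eigenspace_iff] at this

theorem cnt {l : ℕ} [Fact l.Prime] (hl : (l : k) ≠ 0) {E : Type*} [CommGroup E] [Fintype E] (hE : ∀ a : E, a ^ l = 1)
    (σ : E →* End k V) : ∃ m : ℕ, l * ∑ a, finrank k (Eg (σ a) 1) + Fintype.card E * m =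
      Fintype.card E * (finrank k V + l * m) := by
  classical
  obtain ⟨s, h1, h3, h4⟩ := exists_linearIndependent k {v | ∀ a, ∃ c : k, σ a v = c • v}
  rw [eig_span hl σ (fun a b => by rw [← map_mul, mul_comm, map_mul]) fun a => by rw [← map_pow, hE, map_one]] at h3
  let b : Basis s k V := Basis.mk h4 (by rw [Subtype.range_coe, h3])
  have := h4.finite
  have := Fintype.ofFinite s
  have hb : ∀ i a, ∃ c : k, σ a (b i) = c • b i := fun i => by rw [Basis.mk_apply]; exact h1 i.2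
  choose c hc using hb
  let ε : s → E →* k := fun i =>
    { toFun := c i
      map_one' := smul_left_injective k (b.ne_zero i) (by
        change c i 1 • b i = (1 : k) • b i
        rw [← hc, map_one, one_smul]; rfl)
      map_mul' := fun x y => smul_left_injective k (b.ne_zero i) (by
        change c i (x * y) • b i = (c i x * c i y) • b i
        rw [← hc, map_mul, Module.End.mul_apply, hc, map_smul, hc, smul_smul, mul_comm]) }
  have ht : ∀ a, finrank k (Eg (σ a) 1) = ∑ i, if ε i a = 1 then 1 else 0 := fun a => by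
    rw [diag_rk b (σ a) (fun i => c i a) (fun i => hc i a) 1 (fun i => ε i a = 1) fun i => Iff.rfl,
      Finset.card_filter]
  have hk : ∀ i, l * (∑ a, if ε i a = 1 then 1 else 0) + Fintype.card E * (if ε i = 1 then 1 else 0) =
      Fintype.card E * (1 + l * if ε i = 1 then 1 else 0) := fun i => by
    by_cases q : ε i = 1
    · simp [q]; ring
    · simp only [q, if_false, mul_zero, add_zero, mul_one]
      let χ := (ε i).toHomUnits
      have e1 : (∑ a, if ε i a = 1 then 1 else 0) = Nat.card χ.ker := by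
        rw [← Finset.card_filter, Nat.card_eq_fintype_card, Fintype.card_subtype]
        congr 1
        ext a
        simp [χ, Units.ext_iff]
      have e2 : Nat.card χ.range = l := by
        have c1 : IsCyclic χ.range := isCyclic_subgroup_units _
        obtain ⟨g, hg⟩ := c1.exists_ofOrder_eq_natCard
        have c2 : orderOf g ∣ l := orderOf_dvd_of_pow_eq_one (by
          obtain ⟨_, a, rfl⟩ := g
          exact Subtype.ext (by change χ a ^ l = 1; rw [← map_pow, hE, map_one]))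
        rw [hg] at c2
        refine ((Nat.dvd_prime Fact.out).1 c2).resolve_left fun c3 => q (MonoidHom.ext fun a => ?_)
        have c4 := (Subgroup.card_eq_one.1 c3).le (MonoidHom.mem_range.2 ⟨a, rfl⟩)
        exact congrArg Units.val (Subgroup.mem_bot.1 c4)
      rw [e1, ← e2, ← Subgroup.index_ker, mul_comm, Subgroup.card_mul_index, Nat.card_eq_fintype_card]
  refine ⟨∑ i, if ε i = 1 then 1 else 0, ?_⟩
  simp only [ht]
  rw [Finset.sum_comm, finrank_eq_card_basis b, Finset.mul_sum, Finset.mul_sum, Finset.mul_sum, ← Finset.sum_add_distrib,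
    Finset.sum_congr rfl fun i _ => hk i, ← Finset.mul_sum, Finset.sum_add_distrib]
  simp

end LA

section PK
variable {l m : ℕ} [Fact l.Prime]

/-- translations on blocks -/
def tl (l m : ℕ) : Multiplicative (Fin m → ZMod l) →* Perm (Fin m × ZMod l) :=
  MonoidHom.mk' (fun x => prodCongrRight fun j => Equiv.addLeft (x.toAdd j)) fun x y => by
    ext ⟨j, t⟩ <;> simp [add_assoc]

theorem tl_app (x : Multiplicative (Fin m → ZMod l)) (j : Fin m) (t : ZMod l) : tl l m x (j, t) = (j, x.toAdd j + t) := rfl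

theorem pow_l (x : Multiplicative (Fin m → ZMod l)) : x ^ l = 1 := by
  change Multiplicative.ofAdd (l • x.toAdd) = Multiplicative.ofAdd 0
  congr 1
  ext j
  simp

theorem tl_sign (hl : l ≠ 2) (x : Multiplicative (Fin m → ZMod l)) : sign (tl l m x) = 1 := by
  have h1 : sign (tl l m x) ^ l = 1 := by rw [← map_pow, ← map_pow, pow_l, map_one, map_one]
  rcases Int.units_eq_one_or (sign (tl l m x)) with h | h
  · exact h
  · rw [h, ((Fact.out : l.Prime).odd_of_ne_two hl).neg_one_pow] at h1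
    exact absurd h1 (by decide)

/-- conjugacy by an even permutation -/
def AC {α : Type*} [Fintype α] [DecidableEq α] (x y : Perm α) : Prop := ∃ g : Perm α, sign g = 1 ∧ g * x * g⁻¹ = y

theorem AC.symm {α : Type*} [Fintype α] [DecidableEq α] {x y : Perm α} (h : AC x y) : AC y x :=
  let ⟨g, h1, h2⟩ := h; ⟨g⁻¹, by rw [map_inv, h1, inv_one], by rw [← h2]; group⟩

theorem AC.trans {α : Type*} [Fintype α] [DecidableEq α] {x y z : Perm α} (h : AC x y) (h' : AC y z) : AC x z :=
  let ⟨g, h1, h2⟩ := h; let ⟨g', h3, h4⟩ := h'; ⟨g' * g, by rw [map_mul, h1, h3, one_mul], by rw [← h4, ← h2]; group⟩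

theorem AC.of {α : Type*} [Fintype α] [DecidableEq α] {x y g c : Perm α} (h : g * x = y * g) (hc : sign c = -1)
    (h' : c * y = y * c) : AC x y := by
  rcases Int.units_eq_one_or (sign g) with q | q
  · exact ⟨g, q, by rw [h, mul_inv_cancel_right]⟩
  · exact ⟨c * g, by rw [map_mul, hc, q]; rfl, by rw [mul_assoc c, h, ← mul_assoc, h']; group⟩

/-- the support indicator -/
def rep (x : Multiplicative (Fin m → ZMod l)) : Multiplicative (Fin m → ZMod l) :=
  .ofAdd fun j => if x.toAdd j = 0 then 0 else 1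

theorem odd0 (x : Multiplicative (Fin m → ZMod l)) (j : Fin m) (h : x.toAdd j = 0) :
    ∃ c : Perm (Fin m × ZMod l), sign c = -1 ∧ c * tl l m x = tl l m x * c := by
  refine ⟨swap (j, 0) (j, 1), sign_swap (by simp), ?_⟩
  have f : ∀ t, tl l m x (j, t) = (j, t) := fun t => by rw [tl_app, h, zero_add]
  rw [mul_swap_eq_swap_mul, f, f]

theorem odd1 (hl : l ≠ 2) (x : Multiplicative (Fin m → ZMod l)) (i j : Fin m) (hij : i ≠ j) (h : x.toAdd i = x.toAdd j) :
    ∃ c : Perm (Fin m × ZMod l), sign c = -1 ∧ c * tl l m x = tl l m x * c := by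
  refine ⟨prodCongrLeft fun _ => swap i j, ?_, ?_⟩
  · rw [sign_prodCongrLeft, Finset.prod_const, sign_swap hij, Finset.card_univ, ZMod.card,
      ((Fact.out : l.Prime).odd_of_ne_two hl).neg_one_pow]
  · refine Equiv.ext fun ⟨a, t⟩ => ?_
    change (swap i j a, x.toAdd a + t) = (swap i j a, x.toAdd (swap i j a) + t)
    rw [swap_apply_def]
    split_ifs with q1 q2
    · rw [q1, h]
    · rw [q2, h]
    · rfl

theorem ac_rep (hl : l ≠ 2) (hm : 2 ≤ m) (x : Multiplicative (Fin m → ZMod l)) : AC (tl l m (rep x)) (tl l m x) := by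
  obtain ⟨c, hc, hc'⟩ : ∃ c : Perm (Fin m × ZMod l), sign c = -1 ∧ c * tl l m (rep x) = tl l m (rep x) * c := by
    by_cases q : ∃ j, x.toAdd j = 0
    · obtain ⟨j, hj⟩ := q
      exact odd0 _ j (if_pos hj)
    · push Not at q
      exact odd1 hl _ ⟨0, by omega⟩ ⟨1, by omega⟩ (by simp) ((if_neg (q _)).trans (if_neg (q _)).symm)
  refine (AC.of (g := (prodCongrRight fun j => if h : x.toAdd j = 0 then 1 else Equiv.mulLeft₀ _ h)⁻¹) ?_ hc hc').symm
  rw [inv_mul_eq_iff_eq_mul, ← mul_assoc, eq_mul_inv_iff_mul_eq]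
  refine Equiv.ext fun ⟨a, t⟩ => ?_
  change (a, x.toAdd a + (if h : x.toAdd a = 0 then (1 : Perm (ZMod l)) else Equiv.mulLeft₀ _ h) t) =
    (a, (if h : x.toAdd a = 0 then (1 : Perm (ZMod l)) else Equiv.mulLeft₀ _ h) ((if x.toAdd a = 0 then 0 else 1) + t))
  by_cases q : x.toAdd a = 0
  · simp [q]
  · simp [q, mul_add]

theorem rep_pow (x : Multiplicative (Fin m → ZMod l)) {i : ℕ} (hi : ¬ l ∣ i) : rep (x ^ i) = rep x := by
  unfold rep
  congr 1
  ext j
  have : (i : ZMod l) ≠ 0 := fun e => hi ((ZMod.natCast_eq_zero_iff _ _).1 e)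
  simp [this]

theorem ac_sw : AC (tl l 2 (.ofAdd ![0, 1])) (tl l 2 (.ofAdd ![1, 0])) := by
  obtain ⟨c, hc, hc'⟩ := odd0 (l := l) (m := 2) (.ofAdd ![1, 0]) 1 rfl
  refine AC.of (g := prodCongrLeft fun _ => swap 0 1) ?_ hc hc'
  refine Equiv.ext fun ⟨a, t⟩ => ?_
  fin_cases a <;> rfl

end PK

variable {k V : Type u} [Field k] [IsAlgClosed k] [AddCommGroup V] [Module k V] [FiniteDimensional k V]
  {G : Type v} [Group G] [Finite G] {r : ℕ}

theorem sec (l m : ℕ) [Fact l.Prime] (hl : l ≠ 2) (hr : m * l ≤ r) (φ : G →* alternatingGroup (Fin r))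
    (hφ : Function.Surjective φ) (hK : ¬ l ∣ Nat.card φ.ker) : ∃ s : Multiplicative (Fin m → ZMod l) →* G,
      Function.Injective s ∧ ∀ x y, AC (tl l m x) (tl l m y) → IsConj (s x) (s y) := by
  classical
  obtain ⟨e⟩ : Nonempty (Fin m × ZMod l ↪ Fin r) := Function.Embedding.nonempty_of_card_le (by simpa using hr)
  have sg : ∀ σ, sign (viaEmbeddingHom e σ) = sign σ := fun σ => by
    rw [viaEmbeddingHom_apply, viaEmbedding]
    convert sign_extendDomain σ _
  obtain ⟨s, hs⟩ := secL φ hφ hK pow_l (((viaEmbeddingHom e).comp (tl l m)).codRestrict _ fun x => by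
    rw [mem_alternatingGroup, MonoidHom.comp_apply, sg, tl_sign hl])
  have hs' : ∀ x, (φ (s x) : Perm (Fin r)) = viaEmbeddingHom e (tl l m x) := fun x => congrArg Subtype.val (hs x)
  refine ⟨s, (injective_iff_map_eq_one _).2 fun x hx => ?_, ?_⟩
  · have h1 : tl l m x = 1 := viaEmbeddingHom_injective e (by rw [← hs', hx, map_one, map_one]; rfl)
    refine Multiplicative.toAdd.injective (funext fun j => ?_)
    have := congrArg Prod.snd (Equiv.congr_fun h1 (j, 0))
    rw [tl_app] at this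
    simpa using this
  · rintro x y ⟨g, hg, q⟩
    obtain ⟨a, ha⟩ := hφ ⟨viaEmbeddingHom e g, by rw [mem_alternatingGroup, sg, hg]⟩
    refine (isConj_iff.2 ⟨a, rfl⟩).trans (liftConj φ hK (by rw [conj_pow, ← map_pow, pow_l, map_one, mul_one, mul_inv_cancel])
      (by rw [← map_pow, pow_l, map_one]) (Subtype.ext ?_))
    rw [map_mul, map_mul, map_inv, ha, hs', ← q, map_mul, map_mul, map_inv, ← hs']
    rfl

theorem rat (l m : ℕ) [Fact l.Prime] (hl : l ≠ 2) (hm : 2 ≤ m) {s : Multiplicative (Fin m → ZMod l) →* G}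
    (h1 : Function.Injective s) (h2 : ∀ x y, AC (tl l m x) (tl l m y) → IsConj (s x) (s y))
    (x : Multiplicative (Fin m → ZMod l)) (hx : x ≠ 1) :
    orderOf (s x) = l ∧ ∀ i : ℕ, ¬ l ∣ i → IsConj (s x) (s x ^ i) :=
  ⟨orderOf_eq_prime (by rw [← map_pow, pow_l, map_one]) fun q => hx (h1 (q.trans (map_one s).symm)), fun i hi => by
    rw [← map_pow]
    exact h2 _ _ ((ac_rep hl hm x).symm.trans (rep_pow x hi ▸ ac_rep hl hm (x ^ i)))⟩

omit [IsAlgClosed k] in
theorem rk_one : finrank k (Eg (1 : End k V) 1) = finrank k V := by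
  rw [show Eg (1 : End k V) 1 = ⊤ from eq_top_iff.2 fun v _ => mem_Eg.2 (one_smul k v).symm, finrank_top]

theorem cnt5 (φ : G →* alternatingGroup (Fin r)) (hφ : Function.Surjective φ) (ρ : G →* Module.End k V)
    (hV : finrank k V = 56) (hr : 15 ≤ r) (h5 : (5 : k) ≠ 0) (hK : ¬ 5 ∣ Nat.card φ.ker)
    (h : ∀ y : G, orderOf y = 5 → (∀ i : ℕ, ¬ 5 ∣ i → IsConj y (y ^ i)) → finrank k (Eg (ρ y) 1) = 16) : False := by
  classical
  have : Fact (Nat.Prime 5) := ⟨by norm_num⟩
  obtain ⟨s, h1, h2⟩ := sec 5 3 (by decide) hr φ hφ hK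
  obtain ⟨n, hn⟩ := cnt (l := 5) (by exact_mod_cast h5) pow_l (ρ.comp s)
  have t : ∀ x, finrank k (Eg ((ρ.comp s) x) 1) = 16 + if x = 1 then 40 else 0 := fun x => by
    split_ifs with q
    · rw [q, map_one, rk_one, hV]
    · obtain ⟨q1, q2⟩ := rat 5 3 (by decide) (by decide) h1 h2 x q
      exact h _ q1 q2
  have c : Fintype.card (Multiplicative (Fin 3 → ZMod 5)) = 125 := by simp
  simp only [t] at hn
  rw [Finset.sum_add_distrib, Finset.sum_ite_eq', if_pos (Finset.mem_univ _), Finset.sum_const, Finset.card_univ, c, hV,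
    smul_eq_mul] at hn
  omega

theorem fact7 : Fact (Nat.Prime 7) := ⟨by norm_num⟩

attribute [local instance] fact7 in
theorem cnt7 (φ : G →* alternatingGroup (Fin r)) (hφ : Function.Surjective φ) (ρ : G →* Module.End k V)
    (hV : finrank k V = 56) (hr : 14 ≤ r) (h7 : (7 : k) ≠ 0) (hK : ¬ 7 ∣ Nat.card φ.ker)
    (h : ∀ y : G, orderOf y = 7 → (∀ i : ℕ, ¬ 7 ∣ i → IsConj y (y ^ i)) → finrank k (Eg (ρ y) 1) ∈ [2, 8, 20]) : False := by
  classical
  obtain ⟨s, h1, h2⟩ := sec 7 2 (by decide) hr φ hφ hK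
  obtain ⟨n, hn⟩ := cnt (l := 7) (by exact_mod_cast h7) pow_l (ρ.comp s)
  have hc : ∀ x y, AC (tl 7 2 x) (tl 7 2 y) → finrank k (Eg (ρ (s y)) 1) = finrank k (Eg (ρ (s x)) 1) := fun x y q => by
    obtain ⟨g, hg⟩ := isConj_iff.1 (h2 x y q)
    rw [← hg, rk_conj]
  have hv : ∀ x, x ≠ 1 → finrank k (Eg (ρ (s x)) 1) ∈ [2, 8, 20] := fun x q => by
    obtain ⟨q1, q2⟩ := rat 7 2 (by decide) (by decide) h1 h2 x q
    exact h _ q1 q2
  have ha := hv (.ofAdd ![1, 0]) fun q => one_ne_zero (congrFun (congrArg Multiplicative.toAdd q) 0)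
  have hb := hv (.ofAdd ![1, 1]) fun q => one_ne_zero (congrFun (congrArg Multiplicative.toAdd q) 0)
  set a := finrank k (Eg (ρ (s (.ofAdd ![1, 0]))) 1) with ea
  set b := finrank k (Eg (ρ (s (.ofAdd ![1, 1]))) 1) with eb
  have t : ∀ x, finrank k (Eg ((ρ.comp s) x) 1) = (if x.toAdd 0 = 0 ∧ x.toAdd 1 = 0 then 1 else 0) * 56 +
      (if x.toAdd 0 = 0 ↔ x.toAdd 1 = 0 then 0 else 1) * a + (if x.toAdd 0 = 0 ∨ x.toAdd 1 = 0 then 0 else 1) * b := fun x => by
    rw [MonoidHom.comp_apply, hc _ _ (ac_rep (by decide) le_rfl x)]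
    by_cases q0 : x.toAdd 0 = 0 <;> by_cases q1 : x.toAdd 1 = 0
    · rw [show rep x = 1 from Multiplicative.toAdd.injective (funext fun j => by fin_cases j <;> simp [rep, q0, q1]),
        map_one, map_one, rk_one, hV]
      simp [q0, q1]
    · rw [show rep x = .ofAdd ![0, 1] from Multiplicative.toAdd.injective (funext fun j => by
        fin_cases j <;> simp [rep, q0, q1]), ← hc _ _ ac_sw, ← ea]
      simp [q0, q1]
    · rw [show rep x = .ofAdd ![1, 0] from Multiplicative.toAdd.injective (funext fun j => by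
        fin_cases j <;> simp [rep, q0, q1]), ← ea]
      simp [q0, q1]
    · rw [show rep x = .ofAdd ![1, 1] from Multiplicative.toAdd.injective (funext fun j => by
        fin_cases j <;> simp [rep, q0, q1]), ← eb]
      simp [q0, q1]
  have c : Fintype.card (Multiplicative (Fin 2 → ZMod 7)) = 49 := by simp
  simp only [t] at hn
  rw [Finset.sum_add_distrib, Finset.sum_add_distrib, ← Finset.sum_mul, ← Finset.sum_mul, ← Finset.sum_mul, c, hV,
    show (∑ x : Multiplicative (Fin 2 → ZMod 7), if x.toAdd 0 = 0 ∧ x.toAdd 1 = 0 then 1 else 0) = 1 by decide +kernel,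
    show (∑ x : Multiplicative (Fin 2 → ZMod 7), if x.toAdd 0 = 0 ↔ x.toAdd 1 = 0 then 0 else 1) = 12 by decide +kernel,
    show (∑ x : Multiplicative (Fin 2 → ZMod 7), if x.toAdd 0 = 0 ∨ x.toAdd 1 = 0 then 0 else 1) = 36 by decide +kernel] at hn
  simp only [List.mem_cons, List.not_mem_nil, or_false] at ha hb
  omega

end H22.Cn
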