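import Mathlib
import Cfsg.Agent.H22.Two

/-!
# The `B`-property (namespace `H22`)

`PC.qs_of_B`, `PC.comp_of_B`, `center_triv_of_fstar_simple`.
-/

set_option autoImplicit false

namespace H22

open BG Cfsg
open scoped commutatorElement

universe u
variable {G : Type u} [Group G] [Finite G] {K : Subgroup G} {t : G}

theorem PC.qs_of_B (hB : HasBProperty G) (hO : oddCore G = ⊥) (ht : orderOf t = 2) (hK : PC 2 K C_[t]) :
    IsQuasisimple K := by
  have h := hB t ht
  rw [hO, le_bot_iff, Subgroup.map_eq_bot_iff_of_injective _ (Subgroup.subtype_injective _), comm_eq_bot] at h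
  exact (qs_subgroupOf_iff hK.1).1 (pcomp_qs_of_cent hK.2 ((le_pLayer hK.2).trans h))

theorem PC.comp_of_B (hB : HasBProperty G) (hO : oddCore G = ⊥) (ht : orderOf t = 2) (hK : PC 2 K C_[t]) :
    IsComponent (K.subgroupOf C_[t]) := hK.comp (hK.qs_of_B hB hO ht)

theorem cent_fstar_eq_bot (hF : IsSimpleGroup (generalizedFittingSubgroup G))
    (hF' : ¬ IsMulCommutative (generalizedFittingSubgroup G)) : C_(generalizedFittingSubgroup G) = ⊥ := by
  have h1 : (C_(generalizedFittingSubgroup G)).subgroupOf (generalizedFittingSubgroup G) ≠ ⊤ := fun h =>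
    hF' (abelian_iff.2 (Subgroup.subgroupOf_eq_top.1 h))
  have := fstar_normal (G := G)
  have h2 := ((inferInstance : (C_(generalizedFittingSubgroup G)).Normal).subgroupOf _).eq_bot_or_eq_top.resolve_right h1
  rwa [Subgroup.subgroupOf_eq_bot, disjoint_iff, inf_eq_left.2 centralizer_fstar_le] at h2

end H22
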