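import Cfsg.Agent.H23.K0
import Cfsg.Agent.H22.JU

/-! Part E of the interface `H23.K`. -/

set_option autoImplicit false
open Subgroup

namespace H22.KE
universe u
open Cfsg.Agent.H06.J Cfsg.Agent.H23.K H22.JU

theorem fixB {V : Type u} [AddCommGroup V] [Module (ZMod 2) V] [Finite V] {Γ : Type u} [Group Γ] [Finite Γ]
    {T : Γ → V →+ V} {d : Γ} {M K Y : Subgroup Γ} {β : V →+ V →+ ZMod 2} {q : V → ZMod 2} {B : AddSubgroup V}
    (g : Gj T d M β q) (p : Pj T d K Y q B) (t : Γ) (c : V) (h : ∀ v ∈ B, T t v = v ∨ T t v = c + v) :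
    ∀ v ∈ B, T t v = v := by
  classical
  have w3 : ∀ v, T d (T d (T d v)) = v := fun v => by rw [← g.mul, ← g.mul, mul_assoc, g.d3, g.one]
  by_cases ht : t ∈ M
  · intro v hv
    rcases h v hv with h1 | h1
    · exact h1
    · have h2 : T t (T d v) = T d c + T d v := by rw [← g.mul, g.Md t ht, g.mul, h1, map_add]
      have hc : c = 0 := by
        rcases h _ (p.Bω v hv) with h3 | h3
        · rw [h3] at h2
          have h4 : T d c = 0 := by simpa using h2
          rw [← w3 c, h4, map_zero, map_zero]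
        · rw [h3] at h2
          have h4 : T d c = c := (add_right_cancel h2).symm
          have := g.hf c
          rwa [h4, h4, vv, zero_add] at this
      rw [h1, hc, zero_add]
  · exfalso
    have key : ∀ v ∈ B, v ∈ ({0, c, T d (T d c), c + T d (T d c)} : Finset V) := by
      intro v hv
      obtain ⟨a, ha, h1⟩ : ∃ a, (a = 0 ∨ a = c) ∧ T t v = a + v := by
        rcases h v hv with h1 | h1
        exacts [⟨0, Or.inl rfl, by rw [h1, zero_add]⟩, ⟨c, Or.inr rfl, h1⟩]
      obtain ⟨b, hb, h2⟩ : ∃ b, (b = 0 ∨ b = c) ∧ T t (T d v) = b + T d v := by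
        rcases h _ (p.Bω v hv) with h1 | h1
        exacts [⟨0, Or.inl rfl, by rw [h1, zero_add]⟩, ⟨c, Or.inr rfl, h1⟩]
      rw [← g.mul, g.nM t ht, g.mul, g.mul, h1, map_add, map_add] at h2
      have h3 : v = b + T d (T d a) := by
        have e1 := g.hf v
        have e2 := vv (T d (T d a))
        have e3 := vv (T d (T d v))
        have e4 := vv b
        have e5 := vv (T d v)
        calc v = (v + T d v + T d (T d v)) + (T d (T d a) + T d (T d v)) + (T d (T d a) + T d v)
              - (T d (T d a) + T d (T d a)) - (T d (T d v) + T d (T d v)) - (T d v + T d v) := by abel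
          _ = b + T d (T d a) + (T d v + T d v) := by rw [e1, h2, e2, e3, e5]; abel_nf; simp [two_zsmul, vv]
          _ = _ := by rw [e5, add_zero]
      rcases ha with rfl | rfl <;> rcases hb with rfl | rfl <;> simp [h3]
    have h1 : Nat.card B ≤ ({0, c, T d (T d c), c + T d (T d c)} : Finset V).card := by
      rw [← Fintype.card_coe, ← Nat.card_eq_fintype_card]
      exact Nat.card_le_card_of_injective (fun v : B => ⟨v.1, key v.1 v.2⟩) fun a b e =>
        Subtype.ext (Subtype.mk.inj e)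
    have := (Finset.card_le_four (a := (0 : V)) (b := c) (c := T d (T d c)) (d := c + T d (T d c)))
    rw [p.cB] at h1
    omega

theorem e : Cfsg.Agent.H23.K.EStmt.{u} := by
  intro G _ _ z Q V _ _ _ Γ _ _ f π ν T d M β q s K Y B A δ cx c2 hn m hm
  by_contra hne
  have lx := s.md.lx
  have zB : z ∈ s.md.pull B := ⟨lx.aes.mem, s.md.zz ▸ zero_mem _⟩
  have hm' := inv_mem hm
  have eB : m⁻¹ * z * m⁻¹⁻¹ ∈ s.md.pull B := hn _ hm' z zB
  have z'B : m * z * m⁻¹ ∈ s.md.pull B := hn _ hm z zB
  let φ : V →+ ZMod 2 := β (ν (m⁻¹ * z * m⁻¹⁻¹))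
  have hle : s.md.pull φ.ker ≤ A := by
    intro r hr
    have h1 : Commute (m⁻¹ * z * m⁻¹⁻¹) r := (s.b _ eB.1 r hr.1).1 hr.2
    have gz : m * r * m⁻¹ ∈ centralizer ({z} : Set G) := by
      rw [mem_centralizer_singleton_iff]
      calc m * r * m⁻¹ * z = m * (r * (m⁻¹ * z * m⁻¹⁻¹)) * m⁻¹ := by group
        _ = z * (m * r * m⁻¹) := by rw [← h1.eq]; group
    have act : ∀ x ∈ s.md.pull B, m * r * m⁻¹ * x * (m * r * m⁻¹)⁻¹ = x ∨
        m * r * m⁻¹ * x * (m * r * m⁻¹)⁻¹ = m * z * m⁻¹ * x := by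
      intro x hx
      have e0 : m * r * m⁻¹ * x * (m * r * m⁻¹)⁻¹ = m * (r * (m⁻¹ * x * m⁻¹⁻¹)) * r⁻¹ * m⁻¹ := by group
      rcases lx.cm hr.1 (hn _ hm' x hx).1 with h | h
      · left
        rw [e0, h]; group
      · right
        rw [e0, h]; group
    have hf : ∀ v ∈ B, T (π (m * r * m⁻¹)) v = v := by
      refine fixB s.gm cx.pj _ (ν (m * z * m⁻¹)) fun v hv => ?_
      obtain ⟨x, hx, rfl⟩ := s.md.sur v
      rw [s.act _ gz x hx]
      rcases act x ⟨hx, hv⟩ with h | h
      · left; rw [h]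
      · right; rw [h, s.md.mul _ z'B.1 _ hx]
    have hA : m * r * m⁻¹ ∈ A := by
      refine cx.mA _ gz (c2.fB _ hf) fun x hx => ?_
      rcases act x hx with h | h
      · exact (mul_inv_eq_iff_eq_mul.1 h).symm
      · exfalso
        have h2 := hf _ hx.2
        rw [s.act _ gz x hx.1, h, s.md.mul _ z'B.1 _ hx.1, add_eq_right, s.md.ker _ z'B.1] at h2
        rcases h2 with h2 | h2
        · apply lx.z1
          calc z = m⁻¹ * (m * z * m⁻¹) * m := by group
            _ = 1 := by rw [h2]; group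
        · exact hne h2
    exact (mem_normalizer_iff.1 hm r).2 hA
  have h1 := card_le_of_le hle
  rw [s.md.card_pull, cx.cA] at h1
  have h2 := φ.ker.card_mul_index
  have h3 : φ.ker.index ≤ 2 := by
    rw [AddSubgroup.index_ker]
    have := Nat.card_le_card_of_injective (fun x : φ.range => (x : ZMod 2)) Subtype.val_injective
    simpa using this
  rw [s.gm.card] at h2
  nlinarith

end H22.KE
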