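import Cfsg.Agent.H23.K0
import Cfsg.Agent.H22.JU
import Cfsg.Agent.H01.XS5

/-! Part F of the interface `H23.K`. -/

set_option autoImplicit false
open Subgroup Cfsg BG

namespace H22.KF
universe u
open Cfsg.Agent.H06.J Cfsg.Agent.H23.K H22.JU

theorem res {G : Type u} [Group G] [Finite G] [IsSimpleGroup G] {x : G} (h3 : x ^ 3 = 1) (h1 : x ≠ 1) :
    pResidual 2 G = ⊤ := by
  have n : (pResidual 2 G).Normal := ⟨fun a ha g => by
    have : pResidual 2 G ≤ (pResidual 2 G).comap (MulAut.conj g).toMonoidHom := (closure_le _).2 fun y hy =>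
      subset_closure (by
        change Nat.Coprime (orderOf (MulAut.conj g y)) 2
        rw [MulEquiv.orderOf_eq]; exact hy)
    exact this ha⟩
  refine n.eq_bot_or_eq_top.resolve_left fun h => h1 ?_
  have : x ∈ pResidual 2 G := subset_closure (Nat.Coprime.coprime_dvd_left (orderOf_dvd_of_pow_eq_one h3) (by norm_num))
  rwa [h, mem_bot] at this

theorem half {V W : Type u} [AddCommGroup V] [Finite V] [AddCommGroup W] (φ : V →+ W) (c : W)
    (h : ∀ v, φ v = 0 ∨ φ v = c) : Nat.card V ≤ 2 * Nat.card φ.ker := by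
  classical
  have h2 := φ.ker.card_mul_index
  have h3 : φ.ker.index ≤ 2 := by
    rw [AddSubgroup.index_ker]
    have h4 : Nat.card φ.range ≤ ({0, c} : Finset W).card := by
      rw [← Fintype.card_coe, ← Nat.card_eq_fintype_card]
      refine Nat.card_le_card_of_injective (fun v : φ.range => ⟨v.1, ?_⟩) fun a b e => Subtype.ext (Subtype.mk.inj e)
      obtain ⟨_, v, rfl⟩ := v
      simpa using h v
    exact h4.trans Finset.card_le_two
  nlinarith

theorem f : FStmt.{u} := by
  intro G _ _ z Q V _ _ _ Γ _ _ f π ν T d M β q s K Y B A δ cx c2 hs _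
  by_contra! hne
  have lx := s.md.lx
  have g' := s.gm
  have zA : z ∈ A := (c2.e3.ge ⟨lx.aes.mem, s.md.zz ▸ zero_mem _⟩).1
  have wc : ∀ g : G, g * z * g⁻¹ ∈ A → g * z * g⁻¹ = z := fun g hg => by
    obtain ⟨m, hm, e⟩ := H20.FtW.fus cx.u cx.A2 cx.cA zA hg
    rw [← e, hne m hm]
  have δ1 : δ ≠ 1 := by
    intro h
    have hd : d = 1 := by rw [← cx.δd, h]; exact (s.ker 1 (one_mem _)).2 (one_mem _)
    refine Bne cx.pj fun v _ => ?_
    have := g'.hf v
    rwa [hd, g'.one, g'.one, vv, zero_add] at this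
  have fs : Function.Surjective f := fun k => by
    obtain ⟨x, hx, e⟩ := s.sur k
    exact ⟨⟨x, hx⟩, (s.pf _).trans e⟩
  obtain ⟨g, xQ, xz⟩ := lx.fused (K := (M.comap f).map (centralizer ({z} : Set G)).subtype) (res cx.δ3 δ1)
    (by rw [s.card]; norm_num) (map_subtype_le _) (by
      rw [relIndex, subgroupOf, comap_map_eq_self_of_injective (subtype_injective _), index_comap_of_surjective _ fs,
        g'.Mi]) fun x hx => ⟨⟨x, lx.le hx⟩, by
          change f _ ∈ M
          rw [s.pf, (s.ker x (lx.le hx)).2 hx]; exact M.one_mem, rfl⟩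
  set x := g * z * g⁻¹ with hxd
  let φ : V →+ ZMod 2 := β (ν x)
  let R := s.md.pull φ.ker
  have Rx : R ≤ C_[x] := fun r hr => mem_cent1.2 ((s.b _ xQ r hr.1).1 hr.2).symm.eq
  obtain ⟨S, hS, RS⟩ := sylow_superset Nat.prime_two (lx.aes.isPGroup.to_le (show R ≤ Q from fun r hr => hr.1)) Rx
  have eA : H20.FtW.EA A := cx.A2
  obtain ⟨c, hc, cS⟩ := sylow_Jsub Nat.prime_two hS (eA.cj g).pg ((eA.cj g).cent (conj_mem_cj g zA))
  rw [cj_cj] at cS
  set Ax := cj (c * g) A with hAx
  have eX : H20.FtW.EA Ax := eA.cj _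
  have cX : Nat.card Ax = 2048 := (card_cj _ _).trans cx.cA
  have hcx : c * g * z * (c * g)⁻¹ = x := by
    calc c * g * z * (c * g)⁻¹ = c * x * c⁻¹ := by rw [hxd]; group
      _ = x := by rw [mem_cent1.1 hc, mul_inv_cancel_right]
  have zX : z ∉ Ax := fun h => by
    have h1 := wc (c * g)⁻¹ (by rw [inv_inv]; exact mem_cj.1 h)
    apply xz
    rw [← hcx]
    conv_lhs => rw [← h1]
    group
  have nR : ∀ r ∈ R, ∀ a ∈ Ax, r * a * r⁻¹ ∈ Ax := fun r hr a ha => by
    have e := (cx.u S (hS.pg Nat.prime_two)).2 (cj r Ax) (fun y hy => by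
      obtain ⟨b, hb, rfl⟩ := mem_cj'.1 hy
      exact mul_mem (mul_mem (RS hr) (cS hb)) (inv_mem (RS hr))) Ax cS (eX.cj r) eX ((card_cj _ _).trans cX) cX
    exact e ▸ conj_mem_cj r ha
  have zR : z ∈ R := ⟨lx.aes.mem, s.md.zz ▸ zero_mem _⟩
  have hU : ∀ u ∈ Ax, u ∈ Q → ν u = 0 ∨ ν u = ν x := by
    intro u hu uQ
    have k : ∀ v, β (ν x) v = 0 → β (ν u) v = 0 := by
      intro v hv
      obtain ⟨r, hr, rfl⟩ := s.md.sur v
      rw [g'.toQF.sym, s.b r hr u uQ]
      refine (lx.cm hr uQ).resolve_right fun h => zX ?_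
      have h1 := nR r ⟨hr, hv⟩ u hu
      rw [h, mul_assoc, mul_inv_cancel, mul_one] at h1
      exact (mul_mem_cancel_right hu).1 h1
    by_cases h0 : ν u = 0
    · exact Or.inl h0
    · right
      obtain ⟨w, hw⟩ : ∃ w, β (ν u) w ≠ 0 := by
        by_contra! h
        exact h0 (g'.nd _ h)
      have z2 : ∀ a : ZMod 2, a = 0 ∨ a = 1 := by decide
      have hw' : β (ν x) w = 1 := (z2 _).resolve_left fun h => hw (k w h)
      have hw1 : β (ν u) w = 1 := (z2 _).resolve_left hw
      have : ν u + ν x = 0 := g'.nd _ fun v => by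
        rw [map_add, AddMonoidHom.add_apply]
        rcases z2 (β (ν x) v) with h | h
        · rw [k v h, h, add_zero]
        · have h1 := k (v + w) (by rw [map_add, h, hw']; decide)
          rw [map_add, hw1] at h1
          rw [h, h1]
      exact add_right_cancel (this.trans (vv _).symm)
  let A0 := Ax ⊓ C_[z]
  have c0 : 2048 ≤ Nat.card A0 * Nat.card A0 := by
    let ψ : Ax →* Ax := MonoidHom.mk' (fun a => a * ⟨z * a * z⁻¹, nR z zR a a.2⟩) fun a b => Subtype.ext (by
      change (a * b : G) * (z * (a * b) * z⁻¹) = a * (z * a * z⁻¹) * (b * (z * b * z⁻¹))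
      have := eX.comm b.2 (nR z zR a a.2)
      calc (a * b : G) * (z * (a * b) * z⁻¹) = a * (b * (z * a * z⁻¹)) * (z * b * z⁻¹) := by group
        _ = _ := by rw [this]; group)
    have zi : z⁻¹ = z := inv_eq_of_mul_eq_one_right lx.zz
    have k1 : Nat.card ψ.ker ≤ Nat.card A0 := by
      refine Nat.card_le_card_of_injective (fun a : ψ.ker => ⟨a.1.1, a.1.2, mem_cent1.2 ?_⟩)
        fun a b e => Subtype.ext (Subtype.ext (Subtype.mk.inj e))
      have h1 : (a.1 : G) * (z * a.1 * z⁻¹) = 1 := congrArg Subtype.val a.2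
      have h2 := mul_left_cancel (h1.trans (eX _ a.1.2).symm)
      exact (mul_inv_eq_iff_eq_mul.1 h2).symm
    have k2 : Nat.card ψ.range ≤ Nat.card A0 := by
      refine Nat.card_le_card_of_injective (fun a : ψ.range => ⟨a.1.1, a.1.2, mem_cent1.2 ?_⟩)
        fun a b e => Subtype.ext (Subtype.ext (Subtype.mk.inj e))
      obtain ⟨_, a, rfl⟩ := a
      change (a : G) * (z * a * z⁻¹) * z = z * (a * (z * a * z⁻¹))
      rw [eX.comm a.2 (nR z zR a a.2), zi]
      have := eX.comm a.2 (nR z zR a a.2)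
      rw [zi] at this
      calc z * a * z * a * z = z * (a * (z * a * z)) := by group
        _ = _ := by rw [this]
    rw [← cX, ← ψ.ker.card_mul_index, index_ker]
    exact Nat.mul_le_mul k1 k2
  obtain ⟨a, ha, aM, aQ⟩ : ∃ a ∈ A0, π a ∈ M ∧ a ∉ Q := by
    by_contra! h
    let M' : Subgroup G := (M.comap f).map (centralizer ({z} : Set G)).subtype
    have i2 : M'.relIndex C_[z] = 2 := by
      rw [relIndex, subgroupOf, comap_map_eq_self_of_injective (subtype_injective _), index_comap_of_surjective _ fs,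
        g'.Mi]
    have i3 : M'.relIndex A0 ≤ 2 := i2 ▸ relIndex_le_of_le_right inf_le_right (by rw [i2]; norm_num)
    have i4 := relIndex_mul_relIndex ⊥ (A0 ⊓ M') A0 bot_le inf_le_left
    rw [relIndex_bot_left, relIndex_bot_left, inf_relIndex_left] at i4
    have i5 : Nat.card ↥(A0 ⊓ M') ≤ Nat.card (s.md.pull (AddSubgroup.zmultiples (ν x))) := card_le_of_le (by
      rintro _ ⟨ha, y, hy, rfl⟩
      have hQ := h _ ha (by change π (y : G) ∈ M; rw [← s.pf]; exact hy)
      refine ⟨hQ, ?_⟩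
      rcases hU _ ha.1 hQ with e | e <;> rw [e]
      exacts [zero_mem _, AddSubgroup.mem_zmultiples _])
    have i6 : Nat.card (AddSubgroup.zmultiples (ν x)) ≤ 2 := by
      rw [Nat.card_zmultiples]
      exact addOrderOf_le_of_nsmul_eq_zero (by norm_num) (by rw [two_nsmul, vv])
    rw [s.md.card_pull] at i5
    have : Nat.card A0 ≤ 8 := by nlinarith
    nlinarith
  have a2 : π a * π a = 1 := by
    have e := s.pf ⟨a, ha.2⟩
    change _ = π a at e
    rw [← e, ← map_mul, show (⟨a, ha.2⟩ * ⟨a, ha.2⟩ : centralizer ({z} : Set G)) = 1 from Subtype.ext (eX a ha.1), map_one]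
  obtain ⟨k, -, hk⟩ := cx.hk.oc _ aM a2
  let χ : φ.ker →+ V := (AddMonoidHom.id V + T (π a)).comp φ.ker.subtype
  have hχ : ∀ v, χ v = 0 ∨ χ v = ν x := by
    rintro ⟨v, hv⟩
    obtain ⟨r, hr, rfl⟩ := s.md.sur v
    change ν r + T (π a) (ν r) = 0 ∨ ν r + T (π a) (ν r) = ν x
    have rQ : a * r⁻¹ * a⁻¹ ∈ Q := (mem_normalizer_iff.1 (lx.norm ha.2) _).1 (inv_mem hr)
    have e : ν r + T (π a) (ν r) = ν (r * (a * r⁻¹ * a⁻¹)) := by
      rw [s.md.mul _ hr _ rQ, ← s.act a ha.2 _ (inv_mem hr), s.md.inv hr]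
    rw [e]
    refine hU _ ?_ (mul_mem hr rQ)
    rw [show r * (a * r⁻¹ * a⁻¹) = r * a * r⁻¹ * a⁻¹ by group]
    exact mul_mem (nR r ⟨hr, hv⟩ a ha.1) (inv_mem ha.1)
  have n1 := half χ _ hχ
  have n2 : Nat.card V ≤ 2 * Nat.card φ.ker := by
    have h2 := φ.ker.card_mul_index
    have h3 : φ.ker.index ≤ 2 := by
      rw [AddSubgroup.index_ker]
      simpa using Nat.card_le_card_of_injective (fun x : φ.range => (x : ZMod 2)) Subtype.val_injective
    nlinarith
  have inj : Function.Injective ((T k).comp φ.ker.subtype) := fun u v e => Subtype.ext (by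
    have := congrArg (T k⁻¹) e
    simpa [← g'.mul, g'.one] using this)
  have n3 := cx.pi.c256 _ hk (fun h => aQ ((s.ker a ha.2).1 (by simpa using h))) (χ.ker.map ((T k).comp φ.ker.subtype)) (by
    rintro _ ⟨v, hv, rfl⟩
    change T _ (T k v) = T k v
    have h1 : (v : V) + T (π a) v = 0 := hv
    rw [← g'.mul, inv_mul_cancel_right, g'.mul, add_left_cancel (h1.trans (vv _).symm)])
  rw [AddSubgroup.card_map_of_injective inj] at n3
  rw [g'.card] at n2
  omega

end H22.KF
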