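import Mathlib

/-!
# Conway's characterisation of the Leech lattice, part 1 (helper22)

* `gauss` : a quadratic form over `F₂` with Gauss sum of square `|V|` is nondegenerate
* `LL B` : the hypotheses; `LL.fib_eq` : the short vectors in the classes modulo 2; `LL.frame`, `LL.nondeg`
-/

set_option autoImplicit false
set_option linter.unusedSectionVars false
open Matrix Finset

namespace H22.Lch

/-- the sign character -/
def sg (a : ZMod 2) : ℤ := if a = 0 then 1 else -1

theorem sg_add : ∀ a b : ZMod 2, sg (a + b) = sg a * sg b := by decide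
theorem sg_sq : ∀ a : ZMod 2, sg a * sg a = 1 := by decide
theorem sg_ne : ∀ a : ZMod 2, a ≠ 0 → sg a = -1 := by decide

theorem gauss {V : Type*} [AddCommGroup V] [Fintype V] (q : V → ZMod 2) (b : V → V → ZMod 2)
    (hq : ∀ x y, q (x + y) = q x + q y + b x y) (hb : ∀ x x' y, b (x + x') y = b x y + b x' y) (h0 : ∀ x, b x 0 = 0)
    (hS : (∑ x, sg (q x)) ^ 2 = Fintype.card V) {z : V} (hz : ∀ x, b x z = 0) : z = 0 := by
  classical
  have c0 : (Fintype.card V : ℤ) ≠ 0 := by exact_mod_cast Fintype.card_ne_zero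
  have S0 : ∑ x, sg (q x) ≠ 0 := fun e => c0 (by rw [← hS, e]; rfl)
  have k1 : ∀ y, (∀ x, b x y = 0) → sg (q y) = 1 := fun y hy => by
    refine mul_left_cancel₀ S0 ?_
    rw [mul_one, sum_mul, ← Equiv.sum_comp (Equiv.addRight y) fun x => sg (q x)]
    exact sum_congr rfl fun x _ => by rw [Equiv.coe_addRight, hq, hy, add_zero, sg_add]
  have k2 : ∀ y, sg (q y) * ∑ x, sg (b x y) = if ∀ x, b x y = 0 then (Fintype.card V : ℤ) else 0 := fun y => by
    split_ifs with h
    · rw [k1 y h]; simp [h, sg]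
    · push Not at h
      obtain ⟨w, hw⟩ := h
      have : ∑ x, sg (b x y) = -∑ x, sg (b x y) := by
        conv_lhs => rw [← Equiv.sum_comp (Equiv.addRight w) fun x => sg (b x y)]
        rw [← sum_neg_distrib]
        exact sum_congr rfl fun x _ => by rw [Equiv.coe_addRight, hb, sg_add, sg_ne _ hw, mul_neg_one]
      rw [show ∑ x, sg (b x y) = 0 by omega, mul_zero]
  have k3 : (∑ x, sg (q x)) ^ 2 = ∑ y, sg (q y) * ∑ x, sg (b x y) := by
    rw [pow_two, sum_mul]
    simp only [mul_sum]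
    rw [sum_comm (f := fun y x => sg (q y) * sg (b x y))]
    refine sum_congr rfl fun x _ => ?_
    rw [← Equiv.sum_comp (Equiv.addLeft x) fun y => sg (q x) * sg (q y)]
    refine sum_congr rfl fun y _ => ?_
    rw [Equiv.coe_addLeft, hq, sg_add, sg_add, ← mul_assoc, ← mul_assoc, sg_sq, one_mul]
  rw [k3, sum_congr rfl fun y _ => k2 y, ← sum_filter, sum_const, nsmul_eq_mul] at hS
  have k4 : (univ.filter fun y => ∀ x, b x y = 0).card = 1 := by exact_mod_cast mul_right_cancel₀ c0 (hS.trans (one_mul _).symm)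
  exact card_le_one.1 k4.le _ (by simpa using hz) _ (by simpa using h0)

/-- the lattice -/
abbrev Z24 : Type := Fin 24 → ℤ

/-- the form -/
def ip (B : Matrix (Fin 24) (Fin 24) ℤ) (x y : Z24) : ℤ := x ⬝ᵥ (B *ᵥ y)

/-- reduction modulo 2 -/
def rd (x : Z24) : Fin 24 → ZMod 2 := fun i => x i

/-- lift of a word -/
def lf (w : Fin 24 → ZMod 2) : Z24 := fun i => (w i).val

theorem rd_lf (w : Fin 24 → ZMod 2) : rd (lf w) = w := funext fun i => by simp [rd, lf]
theorem rd_add (x y : Z24) : rd (x + y) = rd x + rd y := funext fun i => by simp [rd]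
theorem rd_neg (x : Z24) : rd (-x) = rd x := funext fun i => by simp [rd, ZMod.neg_eq_self_mod_two]

theorem rd_eq {x y : Z24} (h : rd x = rd y) : ∃ u, x = y + (2 : ℤ) • u := by
  have : ∀ i, (2 : ℤ) ∣ x i - y i := fun i => (ZMod.intCast_eq_intCast_iff_dvd_sub _ _ 2).1 (congrFun h i).symm
  choose u hu using this
  exact ⟨u, funext fun i => by simp [← hu]⟩

variable {B : Matrix (Fin 24) (Fin 24) ℤ} {x y : Z24}

theorem ip_add (x x' y : Z24) : ip B (x + x') y = ip B x y + ip B x' y := add_dotProduct _ _ _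
theorem ip_add' (x y y' : Z24) : ip B x (y + y') = ip B x y + ip B x y' := by simp [ip, mulVec_add]
theorem ip_smul (c : ℤ) (x y : Z24) : ip B (c • x) y = c * ip B x y := smul_dotProduct _ _ _
theorem ip_smul' (c : ℤ) (x y : Z24) : ip B x (c • y) = c * ip B x y := by rw [ip, mulVec_smul, dotProduct_smul]; rfl
theorem ip_neg (x y : Z24) : ip B (-x) y = -ip B x y := neg_dotProduct _ _
theorem ip_neg' (x y : Z24) : ip B x (-y) = -ip B x y := by rw [ip, mulVec_neg, dotProduct_neg]; rfl

/-- the hypotheses -/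
structure LL (B : Matrix (Fin 24) (Fin 24) ℤ) : Prop where
  symm : B.IsSymm
  pos : ∀ x, x ≠ 0 → 0 < ip B x x
  even : ∀ x, (2 : ℤ) ∣ ip B x x
  h2 : ∀ x, ip B x x ≠ 2
  h4 : {x | ip B x x = 4}.ncard = 196560
  h6 : {x | ip B x x = 6}.ncard = 16773120
  h8 : {x | ip B x x = 8}.ncard = 398034000

/-- a coordinate frame -/
structure Fr (B : Matrix (Fin 24) (Fin 24) ℤ) (v : Fin 24 → Z24) : Prop where
  o : ∀ i j, ip B (v i) (v j) = if i = j then 8 else 0
  c : ∀ i j, rd (v i) = rd (v j)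

/-- weight of a short vector -/
def wt (B : Matrix (Fin 24) (Fin 24) ℤ) (x : Z24) : ℕ := if ip B x x = 8 then 1 else if x = 0 then 48 else 24

namespace LL
variable (h : LL B)
include h

theorem comm (x y : Z24) : ip B x y = ip B y x := by
  rw [ip, ip, dotProduct_mulVec, ← mulVec_transpose, h.symm.eq, dotProduct_comm]

theorem four (hx : x ≠ 0) : 4 ≤ ip B x x := by
  have := h.pos x hx; have := h.even x; have := h.h2 x; omega

theorem sq (x y : Z24) : ip B (x + y) (x + y) = ip B x x + ip B y y + 2 * ip B x y := by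
  rw [ip_add, ip_add', ip_add', h.comm y x]; ring

theorem pair (hx : ip B x x ≤ 8) (hy : ip B y y ≤ 8) (e : rd x = rd y) (h1 : x ≠ y) (h2 : x ≠ -y) :
    ip B x x = 8 ∧ ip B x y = 0 := by
  obtain ⟨u, hu⟩ := rd_eq e
  obtain ⟨w, hw⟩ := rd_eq (e.trans (rd_neg y).symm)
  have a := h.four (x := u) fun j => h1 (by simpa [j] using hu)
  have b := h.four (x := w) fun j => h2 (by simpa [j] using hw)
  have c := h.sq x (-y)
  have d := h.sq x y
  rw [ip_neg, ip_neg', ip_neg', show x + -y = (2 : ℤ) • u by rw [hu]; abel, ip_smul, ip_smul'] at c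
  rw [show x + y = (2 : ℤ) • w by rw [hw]; abel, ip_smul, ip_smul'] at d
  omega

theorem half (F : Finset Z24) (h8 : ∀ x ∈ F, ip B x x = 8) (hc : ∀ x ∈ F, ∀ y ∈ F, rd x = rd y) (hn : ∀ x ∈ F, -x ∈ F) :
    ∃ P ⊆ F, (∀ x ∈ P, ∀ y ∈ P, x ≠ y → ip B x y = 0) ∧ F.card ≤ 2 * P.card ∧ P.card ≤ 24 := by
  classical
  let P := F.filter fun x => WellOrderingRel x (-x)
  have hP : P ⊆ F := filter_subset _ _
  have o : ∀ x ∈ P, ∀ y ∈ P, x ≠ y → ip B x y = 0 := fun x hx y hy e =>
    (h.pair (h8 x (hP hx)).le (h8 y (hP hy)).le (hc x (hP hx) y (hP hy)) e fun j => by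
      subst j
      exact asymm (mem_filter.1 hy).2 (by simpa using (mem_filter.1 hx).2)).2
  refine ⟨P, hP, o, ?_, ?_⟩
  · refine (card_le_card (t := P ∪ P.image Neg.neg) fun x hx => ?_).trans ((card_union_le _ _).trans (by
      have := card_image_le (s := P) (f := Neg.neg); omega))
    rcases trichotomous_of WellOrderingRel x (-x) with k | k | k
    · exact mem_union_left _ (mem_filter.2 ⟨hx, k⟩)
    · have := h8 x hx
      have j := ip_neg' (B := B) x x
      rw [← k] at j; omega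
    · exact mem_union_right _ (mem_image.2 ⟨-x, mem_filter.2 ⟨hn x hx, by simpa using k⟩, neg_neg x⟩)
  · have : LinearIndependent ℤ fun x : P => (x : Z24) := Fintype.linearIndependent_iff.2 fun a e j => by
      let φ : Z24 →+ ℤ := ⟨⟨fun x => ip B x j, zero_dotProduct _⟩, fun x y => ip_add x y _⟩
      have := congrArg φ e
      rw [map_sum, map_zero, sum_eq_single j (fun i _ e => by
        rw [map_zsmul, show φ i = 0 from o _ i.2 _ j.2 fun k => e (Subtype.ext k), smul_zero])
        (fun e => absurd (mem_univ j) e), map_zsmul, show φ j = 8 from h8 _ (hP j.2), smul_eq_mul] at this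
      omega
    simpa using this.fintype_card_le_finrank

theorem fin4 : {x | ip B x x = 4}.Finite := Set.finite_of_ncard_ne_zero (by rw [h.h4]; norm_num)
theorem fin6 : {x | ip B x x = 6}.Finite := Set.finite_of_ncard_ne_zero (by rw [h.h6]; norm_num)
theorem fin8 : {x | ip B x x = 8}.Finite := Set.finite_of_ncard_ne_zero (by rw [h.h8]; norm_num)

/-- the short vectors -/
noncomputable def sh : Finset Z24 := insert 0 (h.fin4.toFinset ∪ h.fin6.toFinset ∪ h.fin8.toFinset)

theorem mem_sh : x ∈ h.sh ↔ ip B x x ≤ 8 := by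
  simp only [sh, mem_insert, mem_union, Set.Finite.mem_toFinset, Set.mem_setOf_eq]
  refine ⟨?_, fun k => ?_⟩
  · rintro (rfl | (k | k) | k)
    exacts [by simp [ip], by omega, by omega, by omega]
  · by_cases e : x = 0
    · exact .inl e
    · have := h.four e; have := h.even x; omega

theorem sum_wt : ∑ x ∈ h.sh, wt B x = 48 * 2 ^ 24 := by
  have c4 := (Set.ncard_eq_toFinset_card _ h.fin4).symm.trans h.h4
  have c6 := (Set.ncard_eq_toFinset_card _ h.fin6).symm.trans h.h6
  have c8 := (Set.ncard_eq_toFinset_card _ h.fin8).symm.trans h.h8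
  have z : ip B 0 0 = 0 := zero_dotProduct _
  rw [sh, sum_insert (by simp [z]), sum_union (disjoint_left.2 fun x h1 h2 => by simp at h1 h2; omega),
    sum_union (disjoint_left.2 fun x h1 h2 => by simp at h1 h2; omega),
    sum_const_nat (m := 24) fun x hx => by
      have : ip B x x = 4 := by simpa using hx
      rw [wt, if_neg (by omega), if_neg fun e => by rw [e] at this; omega],
    sum_const_nat (m := 24) fun x hx => by
      have : ip B x x = 6 := by simpa using hx
      rw [wt, if_neg (by omega), if_neg fun e => by rw [e] at this; omega],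
    sum_const_nat (f := wt B) (m := 1) fun x hx => if_pos (by simpa using hx), c4, c6, c8, wt, if_neg (by omega), if_pos rfl]
  norm_num

/-- the short vectors in a class -/
noncomputable def fib (k : Fin 24 → ZMod 2) : Finset Z24 := h.sh.filter fun x => rd x = k

theorem mem_fib {k : Fin 24 → ZMod 2} : x ∈ h.fib k ↔ ip B x x ≤ 8 ∧ rd x = k := by rw [fib, mem_filter, mem_sh]

theorem fib_neg {k : Fin 24 → ZMod 2} (hx : x ∈ h.fib k) : -x ∈ h.fib k := by
  rw [mem_fib] at hx ⊢; rwa [ip_neg, ip_neg', neg_neg, rd_neg]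

theorem fib_lt {k : Fin 24 → ZMod 2} (hx : x ∈ h.fib k) (e : ip B x x ≠ 8) : h.fib k = {x, -x} := by
  refine Subset.antisymm (fun y hy => ?_) (insert_subset hx (singleton_subset_iff.2 (h.fib_neg hx)))
  rw [mem_fib] at hx hy
  by_contra j
  simp only [mem_insert, mem_singleton, not_or] at j
  exact e (h.pair hx.1 hy.1 (hx.2.trans hy.2.symm) (Ne.symm j.1) fun u => j.2 (by rw [u, neg_neg])).1

theorem fib_le (k : Fin 24 → ZMod 2) : ∑ x ∈ h.fib k, wt B x ≤ 48 := by
  by_cases e : ∀ x ∈ h.fib k, ip B x x = 8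
  · obtain ⟨P, -, -, h1, h2⟩ := h.half _ e (fun x hx y hy => (h.mem_fib.1 hx).2.trans (h.mem_fib.1 hy).2.symm)
      fun x => h.fib_neg
    rw [sum_const_nat (f := wt B) (m := 1) fun x hx => if_pos (e x hx)]; omega
  push Not at e
  obtain ⟨x, hx, e⟩ := e
  rw [h.fib_lt hx e]
  by_cases j : x = 0
  · simp [j, wt, ip]
  · refine (sum_le_card_nsmul _ _ 24 fun y hy => ?_).trans (by have := card_le_two (a := x) (b := -x); simp only [smul_eq_mul]; omega)
    rcases mem_insert.1 hy with rfl | u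
    · rw [wt, if_neg e, if_neg j]
    · rw [mem_singleton.1 u, wt, ip_neg, ip_neg', neg_neg, if_neg e, if_neg (neg_ne_zero.2 j)]

theorem fib_eq (k : Fin 24 → ZMod 2) : ∑ x ∈ h.fib k, wt B x = 48 := by
  refine (sum_eq_sum_iff_of_le (s := univ) (g := fun _ => 48) fun k _ => h.fib_le k).1 ?_ k (mem_univ k)
  rw [sum_const, card_univ, Fintype.card_fun, ZMod.card, Fintype.card_fin, smul_eq_mul, mul_comm, ← h.sum_wt]
  exact sum_fiberwise _ _ _

theorem frame : ∃ v, Fr B v := by
  obtain ⟨x, hx⟩ := Set.nonempty_of_ncard_ne_zero (s := {x | ip B x x = 8}) (by rw [h.h8]; norm_num)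
  have hx' : x ∈ h.fib (rd x) := h.mem_fib.2 ⟨le_of_eq hx, rfl⟩
  have e : ∀ y ∈ h.fib (rd x), ip B y y = 8 := fun y hy => by_contra fun j => by
    rw [h.fib_lt hy j, mem_insert, mem_singleton] at hx'
    rcases hx' with rfl | rfl
    exacts [j hx, j (by simpa only [Set.mem_setOf_eq, ip_neg, ip_neg', neg_neg] using hx)]
  obtain ⟨P, hP, o, h1, h2⟩ := h.half _ e (fun x hx y hy => (h.mem_fib.1 hx).2.trans (h.mem_fib.1 hy).2.symm)
    fun x => h.fib_neg
  have k := h.fib_eq (rd x)
  rw [sum_const_nat (f := wt B) (m := 1) fun x hx => if_pos (e x hx)] at k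
  let f := (P.equivFinOfCardEq (show P.card = 24 by omega)).symm
  refine ⟨fun i => f i, fun i j => ?_, fun i j => (h.mem_fib.1 (hP (f i).2)).2.trans (h.mem_fib.1 (hP (f j).2)).2.symm⟩
  split_ifs with u
  exacts [u ▸ e _ (hP (f i).2), o _ (f i).2 _ (f j).2 fun w => u (f.injective (Subtype.ext w))]

theorem q_eq (e : rd x = rd y) : ((ip B x x / 2 : ℤ) : ZMod 2) = (ip B y y / 2 : ℤ) := by
  obtain ⟨u, rfl⟩ := rd_eq e
  rw [h.sq, ip_smul, ip_smul', ip_smul', ZMod.intCast_eq_intCast_iff_dvd_sub]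
  have := h.even y; push_cast; omega

theorem b_eq {x' : Z24} (e : rd x = rd x') (y : Z24) : ((ip B x y : ℤ) : ZMod 2) = ip B x' y := by
  obtain ⟨u, rfl⟩ := rd_eq e
  rw [ip_add, ip_smul, ZMod.intCast_eq_intCast_iff_dvd_sub]; push_cast; omega

theorem sg_eq (k : Fin 24 → ZMod 2) :
    sg ((ip B (lf k) (lf k) / 2 : ℤ) : ZMod 2) = 1 - ((h.fin6.toFinset.filter fun x => rd x = k).card : ℤ) := by
  have e : (h.fin6.toFinset.filter fun x => rd x = k) = (h.fib k).filter fun x => ip B x x = 6 := by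
    ext x; simp only [mem_filter, Set.Finite.mem_toFinset, Set.mem_setOf_eq, mem_fib]
    exact ⟨fun j => ⟨⟨by omega, j.2⟩, j.1⟩, fun j => ⟨j.2, j.1.2⟩⟩
  rw [e]
  by_cases j : ∃ x ∈ h.fib k, ip B x x = 6
  · obtain ⟨x, hx, j⟩ := j
    have n : x ≠ -x := fun u => by have := ip_neg' (B := B) x x; rw [← u] at this; omega
    rw [h.q_eq ((rd_lf k).trans (h.mem_fib.1 hx).2.symm), j, h.fib_lt hx (by omega), filter_true_of_mem, card_pair n]
    · decide
    · intro y hy
      rcases mem_insert.1 hy with rfl | u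
      exacts [j, by rw [mem_singleton.1 u, ip_neg, ip_neg', neg_neg, j]]
  · push Not at j
    obtain ⟨x, hx⟩ := nonempty_of_sum_ne_zero (s := h.fib k) (f := wt B) (by rw [h.fib_eq]; norm_num)
    rw [filter_false_of_mem j, h.q_eq ((rd_lf k).trans (h.mem_fib.1 hx).2.symm), sg, if_pos, card_empty]
    · rfl
    rw [ZMod.intCast_zmod_eq_zero_iff_dvd]
    have := j x hx; have := (h.mem_fib.1 hx).1; have := h.even x
    by_cases e : x = 0
    · simp [e, ip]
    · have := h.four e; push_cast; omega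

theorem nondeg (hx : ∀ y, (2 : ℤ) ∣ ip B y x) : rd x = 0 := by
  refine gauss (fun k => ((ip B (lf k) (lf k) / 2 : ℤ) : ZMod 2)) (fun k l => ((ip B (lf k) (lf l) : ℤ) : ZMod 2))
    (fun k l => ?_) (fun k k' l => ?_) (fun k => ?_) ?_ fun k => ?_
  · rw [h.q_eq (y := lf k + lf l) (by rw [rd_add, rd_lf, rd_lf, rd_lf]), h.sq, ← Int.cast_add, ← Int.cast_add]
    have := h.even (lf k); have := h.even (lf l); congr 1; omega
  · rw [h.b_eq (x' := lf k + lf k') (by rw [rd_add, rd_lf, rd_lf, rd_lf]), ip_add, Int.cast_add]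
  · rw [show lf 0 = 0 from funext fun _ => rfl]; simp [ip]
  · rw [sum_congr rfl fun k _ => h.sg_eq k, sum_sub_distrib, ← Nat.cast_sum, ← card_eq_sum_card_fiberwise (fun _ _ => mem_univ _),
      (Set.ncard_eq_toFinset_card _ h.fin6).symm.trans h.h6, sum_const, card_univ, Fintype.card_fun, ZMod.card, Fintype.card_fin]
    norm_num
  · rw [h.comm, h.b_eq (rd_lf _), h.comm, ZMod.intCast_zmod_eq_zero_iff_dvd]; exact hx _

end LL

end H22.Lch
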