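import Mathlib
import Cfsg.Agent.H22.Lch1
import Cfsg.Agent.H14.Leech
import Cfsg.Agent.H14.AbsG2

/-!
# Conway's characterisation of the Leech lattice, part 2 (helper22)

* `co B v x` : coordinates with respect to a frame; `dual` : unimodularity; `cd` : the binary code; `LL.iso`
-/

set_option autoImplicit false
set_option linter.unusedSectionVars false
open Matrix Finset Cfsg

namespace H22.Lch

/-- coordinates -/
def co (B : Matrix (Fin 24) (Fin 24) ℤ) (v : Fin 24 → Z24) : Z24 →+ Z24 where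
  toFun x := fun i => ip B x (v i)
  map_zero' := funext fun _ => zero_dotProduct _
  map_add' x y := funext fun _ => ip_add x y _

variable {B : Matrix (Fin 24) (Fin 24) ℤ} {v : Fin 24 → Z24} {x y u z : Z24}

theorem co_apply (x : Z24) (i : Fin 24) : co B v x i = ip B x (v i) := rfl

/-- the binary code -/
def cd (B : Matrix (Fin 24) (Fin 24) ℤ) (v : Fin 24 → Z24) : Submodule (ZMod 2) (Fin 24 → ZMod 2) where
  carrier := {w | ∃ x y, co B v x = (2 : ℤ) • y ∧ rd y = w}
  zero_mem' := ⟨0, 0, by simp, funext fun _ => rfl⟩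
  add_mem' := fun ⟨x, y, h1, h2⟩ ⟨x', y', h3, h4⟩ => ⟨x + x', y + y', by rw [map_add, h1, h3, smul_add], by rw [rd_add, h2, h4]⟩
  smul_mem' := fun c w ⟨x, y, h1, h2⟩ => by
    rcases (by decide : ∀ c : ZMod 2, c = 0 ∨ c = 1) c with rfl | rfl
    · exact ⟨0, 0, by simp, funext fun _ => by simp [rd]⟩
    · exact ⟨x, y, h1, by simpa using h2⟩

theorem rd_dot (x y : Z24) : rd x ⬝ᵥ rd y = ((x ⬝ᵥ y : ℤ) : ZMod 2) := by simp [rd, dotProduct]

theorem dot_even (h : rd x ⬝ᵥ rd y = 0) : (2 : ℤ) ∣ x ⬝ᵥ y := (ZMod.intCast_zmod_eq_zero_iff_dvd _ 2).1 (rd_dot x y ▸ h)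

theorem lf_sq (w : Fin 24 → ZMod 2) (i : Fin 24) : lf w i = if w i ≠ 0 then 1 else 0 := by
  have : ∀ a : ZMod 2, (a.val : ℤ) = if a ≠ 0 then 1 else 0 := by decide
  exact this _

theorem lf_norm (w : Fin 24 → ZMod 2) : lf w ⬝ᵥ lf w = hammingNorm w := by
  rw [hammingNorm, card_filter, dotProduct]; push_cast
  exact sum_congr rfl fun i _ => by rw [lf_sq]; split_ifs <;> rfl

section
variable (h : LL B) (f : Fr B v)
include h f

theorem mat : of v * (B * (of v)ᵀ) = (8 : ℤ) • (1 : Matrix (Fin 24) (Fin 24) ℤ) := by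
  ext i j
  have := f.o i j
  rw [ip] at this
  rw [mul_apply, Matrix.smul_apply, one_apply, smul_eq_mul, mul_ite, mul_one, mul_zero, ← this]; rfl

theorem det_mat : (of v).det * (B.det * (of v).det) = 8 ^ 24 := by
  have := congrArg det (mat h f)
  rwa [det_mul, det_mul, det_transpose, det_smul, det_one, mul_one, Fintype.card_fin] at this

theorem mat' : B * (of v)ᵀ * of v = (8 : ℤ) • (1 : Matrix (Fin 24) (Fin 24) ℤ) := by
  have k : (of v).det ≠ 0 := fun e => by have := det_mat h f; rw [e, zero_mul] at this; norm_num at this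
  refine (isRegular_of_isLeftRegular_det (IsRegular.of_ne_zero k).left).left ?_
  simp only
  rw [← Matrix.mul_assoc, mat h f, smul_mul_assoc, mul_smul_comm, one_mul, mul_one]

theorem par (x y : Z24) : co B v x ⬝ᵥ co B v y = 8 * ip B x y := by
  have k : ∀ x, co B v x = of v *ᵥ (B *ᵥ x) := fun x => funext fun i => h.comm _ _
  rw [k, k, ← vecMul_transpose (of v), ← dotProduct_mulVec, ← vecMul_transpose B, h.symm.eq, ← dotProduct_mulVec, mulVec_mulVec,
    mulVec_mulVec, mat' h f, smul_mulVec, one_mulVec, dotProduct_smul]; rfl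

theorem unit : IsUnit B.det := by
  have k : ((B.det : ℤ) : ZMod 2) ≠ 0 := fun e => by
    obtain ⟨w, w0, hw⟩ := (exists_mulVec_eq_zero_iff (M := B.map (Int.castRingHom (ZMod 2)))).2
      (((Int.castRingHom (ZMod 2)).map_det B).symm.trans e)
    refine w0 ((rd_lf w).symm.trans (h.nondeg fun y => dot_even ?_))
    rw [show rd (B *ᵥ lf w) = B.map (Int.castRingHom (ZMod 2)) *ᵥ w from funext fun i => by
      conv_rhs => rw [← rd_lf w]
      simp [rd, mulVec, dotProduct], hw, dotProduct_zero]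
  have d : B.det.natAbs ∣ 2 ^ 72 := by
    have : B.det ∣ 8 ^ 24 := det_mat h f ▸ Dvd.dvd.mul_left (dvd_mul_right _ _) _
    exact Int.natAbs_dvd_natAbs.2 this
  obtain ⟨n, -, e⟩ := (Nat.dvd_prime_pow Nat.prime_two).1 d
  rw [Int.isUnit_iff_natAbs_eq, e]
  rcases n with _ | n
  · rfl
  · refine absurd ((ZMod.intCast_zmod_eq_zero_iff_dvd _ 2).2 (Int.natCast_dvd.2 ?_)) k
    rw [e]; exact dvd_pow_self 2 n.succ_ne_zero

theorem co_v (j : Fin 24) : co B v (v j) = Pi.single j 8 := funext fun i => by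
  rw [co_apply, f.o, Pi.single_apply]; simp only [eq_comm]

theorem dual (hu : ∀ x, (8 : ℤ) ∣ u ⬝ᵥ co B v x) : ∃ y, co B v y = u := by
  choose a ha using hu
  obtain ⟨y, hy⟩ := (mulVec_surjective_iff_isUnit.2 ((isUnit_iff_isUnit_det B).2 (unit h f))) fun j => a (Pi.single j 1)
  have k : ∀ x, u ⬝ᵥ co B v x = 8 * ip B x y := fun x => by
    rw [ip, hy]
    conv_lhs => rw [← univ_sum_single x, map_sum, dotProduct_sum]
    rw [dotProduct, mul_sum]
    refine sum_congr rfl fun j _ => ?_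
    rw [show Pi.single j (x j) = x j • (Pi.single j 1 : Z24) by rw [← Pi.single_smul, smul_eq_mul, mul_one], map_zsmul,
      dotProduct_smul, ha, smul_eq_mul]; ring
  refine ⟨y, funext fun i => ?_⟩
  have := k (v i)
  rw [co_v h f, dotProduct_single, h.comm] at this
  rw [co_apply]; omega

theorem parity (x : Z24) (i j : Fin 24) : co B v x i % 2 = co B v x j % 2 := by
  obtain ⟨w, e⟩ := rd_eq (f.c i j)
  rw [co_apply, co_apply, e, ip_add', ip_smul']; omega

theorem ev (hx : co B v x 0 % 2 = 0) : ∃ y, co B v x = (2 : ℤ) • y :=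
  ⟨fun i => co B v x i / 2, funext fun i => by have := parity h f x i 0; simp only [Pi.smul_apply, smul_eq_mul]; omega⟩

theorem four (hz : (2 : ℤ) ∣ ∑ i, z i) : ∃ y, co B v y = (4 : ℤ) • z := dual h f fun x => by
  have : z ⬝ᵥ co B v x = co B v x 0 % 2 * ∑ i, z i + 2 * ∑ i, z i * (co B v x i / 2) := by
    rw [dotProduct, mul_sum, mul_sum, ← sum_add_distrib]
    exact sum_congr rfl fun i _ => by
      rw [← parity h f x i 0]; linear_combination (-z i) * Int.emod_add_mul_ediv (co B v x i) 2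
  obtain ⟨c, hc⟩ := hz
  rw [smul_dotProduct, this, hc, smul_eq_mul]
  exact ⟨co B v x 0 % 2 * c + ∑ i, z i * (co B v x i / 2), by ring⟩

theorem odd : ∃ x, ∀ i, co B v x i % 2 = 1 := by
  by_contra! k
  obtain ⟨y, hy⟩ := dual h f (u := Pi.single 0 4) fun x => by
    obtain ⟨i, hi⟩ := k x
    have := parity h f x i 0
    rw [single_dotProduct]; omega
  have := par h f y y
  rw [hy, single_dotProduct, Pi.single_eq_same] at this
  exact h.h2 y (by omega)

theorem cd_min {w : Fin 24 → ZMod 2} (hw : w ∈ cd B v) (w0 : w ≠ 0) : 8 ≤ hammingNorm w := by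
  obtain ⟨x, y, h1, rfl⟩ := hw
  obtain ⟨i, hi⟩ := Function.ne_iff.1 w0
  obtain ⟨z, hz⟩ := rd_eq (rd_lf (rd y)).symm
  obtain ⟨x', h2⟩ := four h f (z := z + Pi.single i ((∑ j, z j) % 2)) (by
    simp only [Pi.add_apply, sum_add_distrib, sum_pi_single', mem_univ, if_true]; omega)
  have h3 : co B v (x - x') = (2 : ℤ) • lf (rd y) - Pi.single i (4 * ((∑ j, z j) % 2)) := by
    rw [map_sub, h1, h2, ← smul_eq_mul, Pi.single_smul]
    conv_lhs => rw [hz]
    module
  have h4 := par h f (x - x') (x - x')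
  have l : lf (rd y) i = 1 := (lf_sq _ _).trans (if_pos hi)
  rw [h3, sub_dotProduct, dotProduct_sub, dotProduct_sub, smul_dotProduct, dotProduct_smul, lf_norm, dotProduct_single,
    single_dotProduct, single_dotProduct, Pi.single_eq_same, Pi.smul_apply, l] at h4
  have h5 := hammingNorm_ne_zero_iff.2 w0
  have h6 := h.four (x := x - x') fun e => by
    rw [e] at h4
    rcases Int.emod_two_eq_zero_or_one (∑ j, z j) with k | k <;> simp [k, ip] at h4 <;> exact w0 h4
  rcases Int.emod_two_eq_zero_or_one (∑ j, z j) with k | k <;> simp only [k, smul_eq_mul] at h4 <;> omega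

theorem cd_orth {w w' : Fin 24 → ZMod 2} (hw : w ∈ cd B v) (hw' : w' ∈ cd B v) : w ⬝ᵥ w' = 0 := by
  obtain ⟨x, y, h1, rfl⟩ := hw
  obtain ⟨x', y', h2, rfl⟩ := hw'
  have := par h f x x'
  rw [h1, h2, smul_dotProduct, dotProduct_smul, smul_eq_mul, smul_eq_mul] at this
  rw [rd_dot, ZMod.intCast_zmod_eq_zero_iff_dvd]; push_cast; omega

theorem cd_dual {w : Fin 24 → ZMod 2} (hw : ∀ w' ∈ cd B v, w ⬝ᵥ w' = 0) : w ∈ cd B v := by
  obtain ⟨x₀, h0⟩ := odd h f
  have k : ∀ x y, co B v x = (2 : ℤ) • y → (2 : ℤ) ∣ lf w ⬝ᵥ y := fun x y e => dot_even (by rw [rd_lf]; exact hw _ ⟨x, y, e, rfl⟩)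
  obtain ⟨c, hc⟩ := k _ _ (map_zsmul _ 2 x₀)
  have k2 : ∀ x, co B v x 0 % 2 = 0 → (8 : ℤ) ∣ ((2 : ℤ) • (lf w + Pi.single 0 (2 * c))) ⬝ᵥ co B v x := fun x hx => by
    obtain ⟨y, hy⟩ := ev h f hx
    obtain ⟨d, hd⟩ := k x y hy
    rw [hy, smul_dotProduct, dotProduct_smul, add_dotProduct, single_dotProduct, hd]
    exact ⟨d + c * y 0, by simp only [smul_eq_mul]; ring⟩
  obtain ⟨y, hy⟩ := dual h f (u := (2 : ℤ) • (lf w + Pi.single 0 (2 * c))) fun x => by
    rcases Int.emod_two_eq_zero_or_one (co B v x 0) with e | e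
    · exact k2 x e
    · have := k2 (x - x₀) (by have := h0 0; rw [map_sub, Pi.sub_apply]; omega)
      rw [map_sub, dotProduct_sub] at this
      refine (dvd_sub_left ?_).1 this
      obtain ⟨d, hd⟩ : ∃ d, co B v x₀ 0 = 2 * d + 1 := ⟨co B v x₀ 0 / 2, by have := h0 0; omega⟩
      rw [smul_dotProduct, add_dotProduct, single_dotProduct, hc, hd]
      exact ⟨c + c * d, by simp only [smul_eq_mul]; ring⟩
  refine ⟨y, _, hy, ?_⟩
  rw [rd_add, rd_lf, add_eq_left]
  funext i
  rw [rd, Pi.single_apply]; split_ifs <;> simp; exact .inl rfl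

theorem cd_dim : Module.finrank (ZMod 2) (cd B v) = 12 := by
  have k := LinearMap.BilinForm.finrank_orthogonal (B := Matrix.toBilin' (1 : Matrix (Fin 24) (Fin 24) (ZMod 2)))
    (LinearMap.BilinForm.nondegenerate_toBilin'_iff_det_ne_zero.2 (by simp)) (cd B v)
  have e : LinearMap.BilinForm.orthogonal (Matrix.toBilin' (1 : Matrix (Fin 24) (Fin 24) (ZMod 2))) (cd B v) = cd B v := by
    ext w
    simp only [LinearMap.BilinForm.mem_orthogonal_iff, LinearMap.BilinForm.isOrtho_def, toBilin'_apply', one_mulVec]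
    exact ⟨fun j => cd_dual h f fun w' hw => (dotProduct_comm _ _).trans (j w' hw), fun j w' hw => cd_orth h f hw j⟩
  rw [e, Module.finrank_fin_fun] at k; omega

end

theorem LL.frame1 (h : LL B) : ∃ v, Fr B v ∧ ∃ x, ∀ i, co B v x i % 4 = 1 := by
  obtain ⟨v, f⟩ := h.frame
  obtain ⟨x, hx⟩ := odd h f
  let w : Fin 24 → Z24 := fun i => if co B v x i % 4 = 1 then v i else -v i
  have k : ∀ i, rd (w i) = rd (v i) := fun i => by simp only [w]; split_ifs; exacts [rfl, rd_neg _]
  refine ⟨w, ⟨fun i j => ?_, fun i j => by rw [k, k, f.c i j]⟩, x, fun i => ?_⟩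
  · have := f.o i j
    by_cases e : i = j
    · subst e; simp only [w]; split_ifs <;> simp_all [ip_neg, ip_neg']
    · simp only [w]; split_ifs <;> simp_all [ip_neg, ip_neg']
  · have := hx i
    rw [co_apply]; simp only [w]; split_ifs with e
    · exact e
    · rw [ip_neg', ← co_apply]; omega

theorem LL.iso (h : LL B) : ∃ f : Z24 ≃+ leechLattice, ∀ x, sqNorm ((f x : leechLattice) : GolayPt → ℤ) = 8 * ip B x x := by
  obtain ⟨v, f, x₀, h0⟩ := h.frame1
  obtain ⟨e, he⟩ := H14.golay_unique' (Fintype.card_fin 24) (cd B v) (cd_dim h f) (fun w hw => cd_orth h f hw hw)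
    fun w hw => cd_min h f hw
  let φ : Z24 →+ (GolayPt → ℤ) := ⟨⟨fun x p => co B v x (e.symm p), by ext; simp⟩, fun x y => by ext; simp⟩
  have hφ : ∀ x p, φ x p = co B v x (e.symm p) := fun _ _ => rfl
  have m0 : φ x₀ ∈ leechLattice := by
    refine H14.mem_leech.2 ⟨fun p => parity h f _ _ _, ?_, ?_⟩
    · have k : co B v x₀ ⬝ᵥ co B v x₀ + 24 = 2 * ∑ i, co B v x₀ i + 16 * ∑ i, (co B v x₀ i / 4) ^ 2 := by
        rw [dotProduct, mul_sum, mul_sum, ← sum_add_distrib, show (24 : ℤ) = ∑ _i : Fin 24, 1 by simp, ← sum_add_distrib]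
        refine sum_congr rfl fun i _ => ?_
        have := Int.emod_add_mul_ediv (co B v x₀ i) 4
        rw [h0] at this
        generalize co B v x₀ i / 4 = t at *
        rw [← this]; ring
      have := h.even x₀
      have := h0 (e.symm none)
      rw [par h f] at k
      simp only [hφ]
      rw [Equiv.sum_comp e.symm (co B v x₀)]; omega
    · rw [show H14.cset (φ x₀) = ∅ from eq_empty_of_forall_notMem fun p hp => by
        have := H14.mem_cset.1 hp; rw [hφ, h0] at this; omega]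
      exact H14.Code_empty
  have m1 : ∀ x, co B v x 0 % 2 = 0 → φ x ∈ leechLattice := fun x hx => by
    obtain ⟨y, hy⟩ := ev h f hx
    refine H14.mem_leech.2 ⟨fun p => parity h f _ _ _, ?_, fun p => rd y (e.symm p), (he _).2 ⟨x, y, hy, by simp⟩, ?_⟩
    · have k : co B v x ⬝ᵥ co B v x₀ = ∑ i, co B v x i + 8 * ∑ i, y i * (co B v x₀ i / 4) := by
        rw [dotProduct, mul_sum, ← sum_add_distrib]
        refine sum_congr rfl fun i _ => ?_
        have := Int.emod_add_mul_ediv (co B v x₀ i) 4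
        rw [h0] at this
        generalize co B v x₀ i / 4 = t at *
        rw [← this, hy, Pi.smul_apply, smul_eq_mul]; ring
      have := parity h f x (e.symm none) 0
      rw [par h f] at k
      simp only [hφ]
      rw [Equiv.sum_comp e.symm (co B v x)]; omega
    · ext p
      rw [H14.mem_cset, hφ, hy, support₂, mem_filter, rd, Ne, ZMod.intCast_zmod_eq_zero_iff_dvd, Pi.smul_apply, smul_eq_mul]
      simp only [mem_univ, true_and]; push_cast; omega
  have m : ∀ x, φ x ∈ leechLattice := fun x => by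
    rcases Int.emod_two_eq_zero_or_one (co B v x 0) with k | k
    · exact m1 x k
    · rw [← sub_add_cancel x x₀, map_add]
      exact add_mem (m1 _ (by have := h0 0; rw [map_sub, Pi.sub_apply]; omega)) m0
  have n : ∀ x, sqNorm (φ x) = 8 * ip B x x := fun x => by
    rw [← par h f, sqNorm, dotProduct, ← Equiv.sum_comp e.symm]; simp only [hφ, pow_two]
  refine ⟨AddEquiv.ofBijective (φ.codRestrict _ m) ⟨(injective_iff_map_eq_zero _).2 fun x hx => by_contra fun j => ?_,
    fun u => ?_⟩, n⟩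
  · have := n x
    have := h.pos x j
    rw [show φ x = 0 from congrArg Subtype.val hx, H14.sqNorm_eq_zero.2 rfl] at *; omega
  · obtain ⟨y, hy⟩ := dual h f (u := fun i => u.1 (e i)) fun x => by
      have := H14.leech_dot u.2 (m x)
      rwa [dotInt, ← Equiv.sum_comp e, show (fun i => u.1 (e i) * φ x (e i)) = fun i => u.1 (e i) * co B v x i by
        simp [hφ]] at this
    exact ⟨y, Subtype.ext (funext fun p => by change co B v y (e.symm p) = _; rw [hy]; simp)⟩

end H22.Lch
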