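import Mathlib
import Cfsg.Agent.H08.BaerSuzuki

/-!
# Rank three involution classes: the non-commuting graph contains an induced path on four vertices
* `H22.R3.fin`
-/

set_option autoImplicit false

namespace H22.R3

variable {G : Type*} [Group G]

theorem cj_comm (g a b : G) : g * a * g⁻¹ * (g * b * g⁻¹) = g * b * g⁻¹ * (g * a * g⁻¹) ↔ a * b = b * a := by
  rw [show g * a * g⁻¹ * (g * b * g⁻¹) = g * (a * b) * g⁻¹ by group,
    show g * b * g⁻¹ * (g * a * g⁻¹) = g * (b * a) * g⁻¹ by group, mul_left_inj, mul_right_inj]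

theorem cj_eq (g a b : G) : g * a * g⁻¹ = g * b * g⁻¹ ↔ a = b := by rw [mul_left_inj, mul_right_inj]

theorem fin [Finite G] (hO : Cfsg.pCore 2 G = ⊥) {D : Set G} (hinv : ∀ d ∈ D, orderOf d = 2)
    (hconj : ∃ d ∈ D, D = conjugatesOf d) (hgen : Subgroup.closure D = ⊤)
    (hc : ∃ a ∈ D, ∃ b ∈ D, a ≠ b ∧ a * b = b * a)
    (h3 : ∀ x ∈ D, ∀ y ∈ D, ∀ z ∈ D, y ≠ x → z ≠ x → (x * y = y * x ↔ x * z = z * x) →
      ∃ g : G, Commute g x ∧ g * y * g⁻¹ = z)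
    (LL : ∀ a ∈ D, ∀ b ∈ D, ∀ e ∈ D, a ≠ b → a * b = b * a → a * e ≠ e * a → b * e ≠ e * b →
      Commute (a * e * a) (b * e * b))
    (P4 : ∀ x ∈ D, ∀ f ∈ D, ∀ g ∈ D, ∀ d ∈ D, x * f ≠ f * x → f * g ≠ g * f → g * d ≠ d * g → x * g = g * x →
      x * d = d * x → f * d = d * f → False) : False := by
  obtain ⟨v, hv, hD⟩ := hconj
  have sq : ∀ d ∈ D, d * d = 1 := fun d hd => by rw [← pow_two, ← hinv d hd, pow_orderOf_eq_one]
  have iv : ∀ d ∈ D, d⁻¹ = d := fun d hd => inv_eq_of_mul_eq_one_right (sq d hd)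
  have cj : ∀ d ∈ D, ∀ g : G, g * d * g⁻¹ ∈ D := fun d hd g => by
    rw [hD] at hd ⊢
    exact IsConj.trans hd (isConj_iff.2 ⟨g, rfl⟩)
  have tr : ∀ x ∈ D, ∀ y ∈ D, ∃ g : G, g * x * g⁻¹ = y := fun x hx y hy => by
    rw [hD] at hx hy
    exact isConj_iff.1 (IsConj.trans (IsConj.symm hx) hy)
  have mv : ∀ x ∈ D, ∀ y ∈ D, ∀ z ∈ D, y ≠ x → z ≠ v → (x * y = y * x ↔ v * z = z * v) →
      ∃ g : G, g * x * g⁻¹ = v ∧ g * y * g⁻¹ = z := fun x hx y hy z hz a b c => by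
    obtain ⟨g, rfl⟩ := tr x hx v hv
    obtain ⟨k, k1, k2⟩ := h3 _ hv _ (cj y hy g) z hz (fun e => a ((cj_eq g _ _).1 e)) b ((cj_comm g x y).trans c)
    refine ⟨k * g, ?_, ?_⟩
    · rw [show k * g * x * (k * g)⁻¹ = k * (g * x * g⁻¹) * k⁻¹ by group, k1.eq, mul_inv_cancel_right]
    · rw [← k2]; group
  obtain ⟨a0, ha0, b0, hb0, ne0, c0⟩ := hc
  by_cases H1 : ∀ a ∈ D, ∀ b ∈ D, ∀ e ∈ D, a ≠ b → a * b = b * a → a * e ≠ e * a → b * e = e * b
  · have key : ∀ g ∈ Subgroup.closure D, ∀ w ∈ D, (w = a0 ∨ a0 * w ≠ w * a0) →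
        (g * w * g⁻¹ = a0 ∨ a0 * (g * w * g⁻¹) ≠ g * w * g⁻¹ * a0) := fun g hg => by
      have step : ∀ d ∈ D, ∀ w ∈ D, (w = a0 ∨ a0 * w ≠ w * a0) →
          (d * w * d⁻¹ = a0 ∨ a0 * (d * w * d⁻¹) ≠ d * w * d⁻¹ * a0) := fun d hd w hw q => by
        by_cases q1 : d * w = w * d
        · rwa [q1, mul_inv_cancel_right]
        -- `d`, `w` and `d w d` are pairwise equal or adjacent
        have q2 : d * (d * w * d⁻¹) ≠ d * w * d⁻¹ * d := fun e => q1 (by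
          have := (cj_comm d⁻¹ d (d * w * d⁻¹)).2 e
          rwa [show d⁻¹ * d * d⁻¹⁻¹ = d by group, show d⁻¹ * (d * w * d⁻¹) * d⁻¹⁻¹ = w by group] at this)
        have q3 : d = a0 ∨ a0 * d ≠ d * a0 := by
          by_contra! r
          rcases q with rfl | q
          · exact q1 r.2.symm
          · exact q1 (H1 a0 ha0 d hd w hw r.1.symm r.2 q)
        by_contra! r
        rcases q3 with rfl | q3
        · exact q2 r.2
        · exact q2 (H1 a0 ha0 _ (cj w hw d) d hd r.1.symm r.2 q3).symm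
      induction hg using Subgroup.closure_induction'' with
      | mem d hd => exact step d hd
      | inv_mem d hd => rw [iv d hd]; exact step d hd
      | one => simp
      | mul g k _ _ i j =>
        intro w hw q
        rw [show g * k * w * (g * k)⁻¹ = g * (k * w * k⁻¹) * g⁻¹ by group]
        exact i _ (cj w hw k) (j w hw q)
    obtain ⟨g, rfl⟩ := tr a0 ha0 b0 hb0
    exact (key g (hgen ▸ Subgroup.mem_top g) a0 ha0 (Or.inl rfl)).elim (fun e => ne0 e.symm) fun e => e c0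
  by_cases H2 : ∀ a ∈ D, ∀ b ∈ D, ∀ e ∈ D, a * e = e * a → e * b = b * e → a * b = b * a
  · have u1 : a0 * b0 * (a0 * b0) = 1 := by rw [mul_assoc, ← mul_assoc b0, ← c0, mul_assoc, sq b0 hb0, mul_one, sq a0 ha0]
    have u2 : ∀ e ∈ D, e * (a0 * b0 * e * (a0 * b0)⁻¹) = a0 * b0 * e * (a0 * b0)⁻¹ * e := fun e he => by
      by_cases q : a0 * e = e * a0
      · have q' := H2 e he b0 hb0 a0 ha0 q.symm c0
        rw [show a0 * b0 * e = e * (a0 * b0) by rw [mul_assoc, ← q', ← mul_assoc, q, mul_assoc], mul_inv_cancel_right]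
      · have q' : b0 * e ≠ e * b0 := fun r => q (H2 a0 ha0 e he b0 hb0 c0 r)
        have := (cj_comm a0 _ _).2 (LL a0 ha0 b0 hb0 e he ne0 c0 q q').eq
        rwa [show a0 * (a0 * e * a0) * a0⁻¹ = a0 * a0 * e by group, sq a0 ha0, one_mul,
          show a0 * (b0 * e * b0) * a0⁻¹ = a0 * b0 * e * (a0 * b0)⁻¹ by rw [mul_inv_rev, iv b0 hb0]; group] at this
    have u3 : a0 * b0 ∈ Cfsg.pCore 2 G := H08.baer_suzuki_elt _ fun g => by
      set u := a0 * b0 with hu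
      have w1 : g * u * g⁻¹ = g * a0 * g⁻¹ * (g * b0 * g⁻¹) := by rw [hu]; group
      have w2 := (cj_comm g a0 b0).2 c0
      have i1 := cj a0 ha0 g
      have i2 := cj b0 hb0 g
      generalize g * a0 * g⁻¹ = a at w1 w2 i1
      generalize g * b0 * g⁻¹ = b at w1 w2 i2
      rw [w1]
      have w3 : a * b * (a * b) = 1 := by rw [mul_assoc, ← mul_assoc b, ← w2, mul_assoc, sq b i2, mul_one, sq a i1]
      have c1 : Commute a (u * a * u⁻¹) := u2 a i1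
      have c2 : Commute b (u * b * u⁻¹) := u2 b i2
      have c3 : Commute b (u * a * u⁻¹) := H2 b i2 _ (cj a i1 u) a i1 w2.symm c1
      have c4 : Commute a (u * b * u⁻¹) := H2 a i1 _ (cj b i2 u) b i2 w2 c2
      have c5 : Commute (a * b) (u * (a * b) * u⁻¹) := by
        rw [show u * (a * b) * u⁻¹ = u * a * u⁻¹ * (u * b * u⁻¹) by group]
        exact (c1.mul_right c4).mul_left (c3.mul_right c2)
      refine H08.isPGroup_two_closure_invols u1 w3 (k := 2) ?_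
      have e1 : (u * (a * b)) ^ 2 = u * (a * b) * u⁻¹ * (a * b) := by
        rw [inv_eq_of_mul_eq_one_right u1, pow_two, ← mul_assoc]
      rw [show 2 ^ 2 = 2 * 2 from rfl, pow_mul, e1, c5.symm.mul_pow, conj_pow, pow_two, w3]
      simp
    rw [hO, Subgroup.mem_bot] at u3
    exact ne0 ((eq_inv_of_mul_eq_one_left u3).trans (iv b0 hb0))
  push Not at H1 H2
  obtain ⟨a1, ha1, b1, hb1, e1, he1, n1, c1, d1, d2⟩ := H1
  obtain ⟨a2, ha2, b2, hb2, e2, he2, c2, c3, d3⟩ := H2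
  have F1 : ∀ b ∈ D, b ≠ v → v * b = b * v → ∃ a ∈ D, v * a ≠ a * v ∧ b * a ≠ a * b := fun b hb i j => by
    obtain ⟨g, rfl, rfl⟩ := mv a1 ha1 b1 hb1 b hb n1.symm i (iff_of_true c1 j)
    exact ⟨_, cj e1 he1 g, mt (cj_comm g _ _).1 d1, mt (cj_comm g _ _).1 d2⟩
  have F2 : ∀ a ∈ D, v * a ≠ a * v → ∃ b ∈ D, v * b = b * v ∧ b * a = a * b := fun a ha j => by
    obtain ⟨g, rfl, rfl⟩ := mv a2 ha2 b2 hb2 a ha (by rintro rfl; exact d3 rfl) (by rintro rfl; exact j rfl) (iff_of_false d3 j)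
    exact ⟨_, cj e2 he2 g, (cj_comm g _ _).2 c2, (cj_comm g _ _).2 c3⟩
  let S : G → Set G := fun a => {b | b ∈ D ∧ v * b = b * v ∧ b * a ≠ a * b}
  obtain ⟨a, ⟨ha, va⟩, hm⟩ := Set.exists_max_image {a | a ∈ D ∧ v * a ≠ a * v} (fun a => (S a).ncard) (Set.toFinite _) (by
    obtain ⟨g, e⟩ := tr a1 ha1 v hv
    exact ⟨_, cj e1 he1 g, e ▸ mt (cj_comm g _ _).1 d1⟩)
  obtain ⟨b, hb, vb, ab⟩ := F2 a ha va
  obtain ⟨a', ha', va', ba'⟩ := F1 b hb (by rintro rfl; exact va ab) vb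
  obtain ⟨b', ⟨hb', vb', ab'⟩, q⟩ : ∃ b' ∈ S a, b' ∉ S a' := by
    by_contra! r
    exact (hm a' ⟨ha', va'⟩).not_gt (Set.ncard_lt_ncard ⟨r, fun e => (e ⟨hb, vb, ba'⟩).2.2 ab⟩)
  have q1 : b' * a' = a' * b' := by_contra fun e => q ⟨hb', vb', e⟩
  by_cases q2 : a * a' = a' * a
  · exact P4 b' hb' a ha v hv a' ha' ab' (Ne.symm va) va' vb'.symm q1 q2
  by_cases q3 : b' * b = b * b'
  · exact P4 b' hb' a ha a' ha' b hb ab' q2 (Ne.symm ba') q1 q3 ab.symm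
  · exact P4 v hv a ha b' hb' b hb va (Ne.symm ab') q3 vb' vb ab.symm

end H22.R3
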