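import Cfsg.Agent.L.Jf0
import Cfsg.Agent.H04.Extraspecial

/-! Part W of the interface `L.Jf`. -/

set_option autoImplicit false
open Subgroup BG Cfsg
open scoped commutatorElement

namespace H22.S5W
universe u

theorem w : L.Jf.WStmt.{u} := by
  intro X _ _ Q z δ hz c192 lo
  classical
  by_contra! h
  haveI := Fact.mk Nat.prime_two
  obtain ⟨y, ae, hy, -⟩ := H04.exists_aes_of_isExtraspecial' lo.ex
  have z1 : z ≠ 1 := fun e => by simp [e] at hz
  have zc : ∀ x ∈ Q, x * z = z * x := fun x hx => mem_cent1.1 (lo.QL hx)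
  obtain rfl : z = y := (ae.eq_or (hy.le ⟨lo.zQ, zc⟩)).resolve_left z1
  have zz : z * z = 1 := ae.mul_self
  have sq : ∀ x ∈ Q, x * x = 1 ∨ x * x = z := fun x hx => by rw [← pow_two]; exact ae.eq_or (ae.pow x hx)
  have cm : ∀ e ∈ Q, ∀ f ∈ Q, e * f = f * e ∨ e * f = z * f * e := fun e he f hf =>
    (em (Commute e f)).imp_right fun n => by rw [← ae.comm_eq he hf n, commutatorElement_def]; group
  have := Fintype.ofFinite Q
  let χ : X → ℤ := fun a => if a = 1 then 1 else -1
  have χm : ∀ a b : X, (a = 1 ∨ a = z) → (b = 1 ∨ b = z) → χ (a * b) = χ a * χ b := by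
    rintro a b (rfl | rfl) (rfl | rfl) <;> simp [χ, z1, zz]
  let k : Q → Q → X := fun x u => (u : X) * x * (u : X)⁻¹ * (x : X)⁻¹
  have kz : ∀ x u, k x u = 1 ∨ k x u = z := fun x u => (cm u u.2 x x.2).imp
    (fun e => by simp only [k]; rw [e]; group) fun e => by simp only [k]; rw [e]; group
  have kc : ∀ x u, ∀ a ∈ Q, a * k x u = k x u * a := fun x u a ha => by
    rcases kz x u with e | e <;> rw [e]
    exacts [by simp, zc a ha]
  have e1 : ∀ x u : Q, χ ((x * u : Q) * (x * u : Q)) = χ (x * x) * (χ (k x u) * χ (u * u)) := fun x u => by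
    have : ((x * u : Q) : X) * (x * u : Q) = (k x u * (x * x)) * (u * u) := by
      rw [← mul_assoc (k x u), ← kc x u x x.2]
      calc ((x * u : Q) : X) * (x * u : Q) = x * (u * x * (u : X)⁻¹) * (u * u) := by
            simp only [Subgroup.coe_mul]; group
        _ = _ := by simp only [k]; group
    rw [this, χm _ _ _ (sq u u.2), χm _ _ (kz x u) (sq x x.2)]
    · ring
    · rcases kz x u with a | a <;> rcases sq x x.2 with b | b <;> simp [a, b, zz]
  have e2 : ∀ u : Q, (∑ x : Q, χ (k x u)) * χ (u * u) = if u = 1 ∨ u = ⟨z, lo.zQ⟩ then 32 else 0 := fun u => by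
    split_ifs with hu
    · have a : ∀ x : Q, k x u = 1 := fun x => by
        rcases hu with rfl | rfl
        · simp [k]
        · simp only [k]; change z * x * z⁻¹ * (x : X)⁻¹ = 1; rw [← zc x x.2]; group
      have b : (u : X) * u = 1 := by rcases hu with rfl | rfl; exacts [by simp, zz]
      simp [a, b, χ, ← Nat.card_eq_fintype_card, lo.cQ]
    · obtain ⟨v, hv⟩ : ∃ v : Q, k v u ≠ 1 := by
        by_contra! a
        refine hu ((ae.eq_or (hy.le ⟨u.2, fun x hx => ?_⟩)).imp Subtype.ext Subtype.ext)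
        have := a ⟨x, hx⟩
        simp only [k] at this
        rw [mul_inv_eq_one, mul_inv_eq_iff_eq_mul] at this
        exact this.symm
      have a : ∀ x : Q, χ (k (x * v) u) = -χ (k x u) := fun x => by
        have : k (x * v) u = k x u * k v u := by
          calc k (x * v) u = k x u * (x * k v u) * (x : X)⁻¹ := by simp only [k, Subgroup.coe_mul]; group
            _ = _ := by rw [kc v u x x.2]; group
        rw [this, χm _ _ (kz x u) (kz v u)]
        simp [χ, hv]
      have b : ∑ x : Q, χ (k x u) = ∑ x : Q, χ (k (x * v) u) :=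
        (Fintype.sum_equiv (Equiv.mulRight v) _ _ fun _ => rfl).symm
      simp only [a, Finset.sum_neg_distrib] at b
      rw [show ∑ x : Q, χ (k x u) = 0 by omega, zero_mul]
  have χ2 : ∀ a, χ a * χ a = 1 := fun a => by simp only [χ]; split_ifs <;> rfl
  have S2 : (∑ x : Q, χ (x * x)) * (∑ x : Q, χ (x * x)) = 64 := by
    rw [Finset.sum_mul]
    calc ∑ x : Q, χ (x * x) * ∑ x : Q, χ (x * x) = ∑ x : Q, ∑ u : Q, χ (k x u) * χ (u * u) := by
          refine Finset.sum_congr rfl fun x _ => ?_
          rw [← Fintype.sum_equiv (Equiv.mulLeft x) (fun u : Q => χ ((x * u : Q) * (x * u : Q)))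
            (fun u : Q => χ (u * u)) fun _ => rfl, Finset.mul_sum]
          exact Finset.sum_congr rfl fun u _ => by rw [e1, ← mul_assoc, χ2, one_mul]
      _ = ∑ u : Q, if u = 1 ∨ u = ⟨z, lo.zQ⟩ then 32 else 0 := by
          rw [Finset.sum_comm]
          exact Finset.sum_congr rfl fun u _ => by rw [← Finset.sum_mul, e2]
      _ = 64 := by
          rw [← Finset.sum_filter, show Finset.univ.filter (fun u : Q => u = 1 ∨ u = ⟨z, lo.zQ⟩) = {1, ⟨z, lo.zQ⟩} from by
            ext; simp, Finset.sum_pair fun e => z1 (congrArg Subtype.val e).symm]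
          rfl
  let I := {r : Q // (r : X) * r = 1 ∧ r ≠ 1 ∧ r ≠ ⟨z, lo.zQ⟩}
  letI : MulAction C_[z] I :=
    { smul := fun g r => ⟨⟨g * r.1 * (g : X)⁻¹, (mem_normalizer_iff.1 (lo.nQ g.2) _).1 r.1.2⟩, H20.FtW.sq_conj r.2.1 g,
        fun e => r.2.2.1 (Subtype.ext (by simpa using congrArg Subtype.val e)), fun e => r.2.2.2 (Subtype.ext (by
          have e' : (g : X) * r.1 * (g : X)⁻¹ = z := congrArg Subtype.val e
          rw [mul_inv_eq_iff_eq_mul, ← mem_cent1.1 g.2] at e'
          exact mul_left_cancel e'))⟩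
      one_smul := fun r => Subtype.ext (Subtype.ext (by change (1 : X) * r.1 * 1⁻¹ = _; simp))
      mul_smul := fun a b r => Subtype.ext (Subtype.ext (by
        change (a * b : X) * r.1 * (a * b : X)⁻¹ = a * (b * r.1 * (b : X)⁻¹) * (a : X)⁻¹; group)) }
  have d12 : 12 ∣ Nat.card I := by
    have := Fintype.ofFinite (MulAction.orbitRel.Quotient C_[z] I)
    rw [Nat.card_congr (MulAction.selfEquivSigmaOrbits C_[z] I), Nat.card_sigma]
    refine Finset.dvd_sum fun o _ => ?_
    have a1 := (MulAction.stabilizer C_[z] o.out).card_mul_index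
    rw [MulAction.index_stabilizer, c192, ← Nat.card_coe_set_eq] at a1
    have a2 : Nat.card (MulAction.stabilizer C_[z] o.out) ∣ 16 := by
      refine dvd_trans ?_ (h _ o.out.1.2 (fun e => o.out.2.2.2 (Subtype.ext e))
        (orderOf_eq_prime (by rw [pow_two]; exact o.out.2.1) fun e => o.out.2.2.1 (Subtype.ext e)))
      rw [← card_map_of_injective (subtype_injective _)]
      refine card_dvd_of_le ?_
      rintro _ ⟨g, hg, rfl⟩
      exact mem_cent1.2 (mul_inv_eq_iff_eq_mul.1 (congrArg (fun r : I => (r.1 : X)) hg))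
    obtain ⟨c, hc⟩ := a2
    exact ⟨c, Nat.eq_of_mul_eq_mul_left (Nat.card_pos (α := MulAction.stabilizer C_[z] o.out)) (by
      rw [mul_left_comm, ← hc]; exact a1)⟩
  have cI : (Finset.univ.filter fun x : Q => (x : X) * x = 1).card = Nat.card I + 2 := by
    rw [Nat.card_eq_fintype_card, Fintype.card_subtype, ← Finset.card_pair (show (1 : Q) ≠ ⟨z, lo.zQ⟩ from
      fun e => z1 (congrArg Subtype.val e).symm), ← Finset.card_union_of_disjoint (by simp [Finset.disjoint_left])]
    congr 1
    ext x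
    by_cases a : x = 1
    · simp [a]
    · by_cases b : x = ⟨z, lo.zQ⟩ <;> simp [a, b, zz]
  have cJ := Finset.card_filter_add_card_filter_not (s := Finset.univ) fun x : Q => (x : X) * x = 1
  rw [Finset.card_univ, ← Nat.card_eq_fintype_card, lo.cQ, cI] at cJ
  simp only [χ, Finset.sum_ite, Finset.sum_const, cI] at S2
  obtain ⟨n, hn⟩ := d12
  rw [hn] at S2 cJ
  generalize (Finset.univ.filter fun x : Q => ¬ (x : X) * x = 1).card = m at S2 cJ
  have : n ≤ 2 := by omega
  obtain rfl : m = 30 - 12 * n := by omega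
  interval_cases n <;> simp at S2

end H22.S5W
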