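import Cfsg.Agent.H10.SubfL

/-!
# Overgroups of `SO₄` in odd characteristic: linear algebra
-/

set_option autoImplicit false

namespace H22.Sl4
open Module H10

variable {F V : Type*} [Field F] [AddCommGroup V] [Module F V] [FiniteDimensional F V] {B : V →ₗ[F] V →ₗ[F] F}

/-- a non-degenerate symmetric form in odd characteristic -/
structure SF (B : V →ₗ[F] V →ₗ[F] F) : Prop where
  h2 : (2 : F) ≠ 0
  sy : ∀ x y, B x y = B y x
  nd : ∀ x, (∀ y, B x y = 0) → x = 0

namespace SF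
variable (h : SF B)
include h

theorem rep (f : Dual F V) : ∃ w, B w = f :=
  (LinearMap.injective_iff_surjective_of_finrank_eq_finrank (f := B) Subspace.dual_finrank_eq.symm).1
    ((injective_iff_map_eq_zero _).2 fun x hx => h.nd x fun y => by rw [hx]; rfl) f

theorem ob (Y : Submodule F V) (hY : ∀ x ∈ Y, (∀ y ∈ Y, B x y = 0) → x = 0) {n : ℕ} (hn : finrank F Y = n) :
    ∃ e : Fin n → V, (∀ i, e i ∈ Y) ∧ (∀ i j, i ≠ j → B (e i) (e j) = 0) ∧ (∀ i, B (e i) (e i) ≠ 0) ∧
      ∀ y ∈ Y, ∃ c : Fin n → F, y = ∑ i, c i • e i := by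
  subst hn
  have := invertibleOfNonzero h.h2
  obtain ⟨b, hb⟩ := LinearMap.BilinForm.exists_orthogonal_basis (B := B.compl₁₂ Y.subtype Y.subtype)
    ⟨fun x y => h.sy _ _⟩
  have h1 : ∀ y ∈ Y, ∃ c : Fin (finrank F Y) → F, y = ∑ i, c i • (b i : V) := fun y hy =>
    ⟨b.repr ⟨y, hy⟩, (congrArg Y.subtype (b.sum_repr ⟨y, hy⟩)).symm.trans (by rw [map_sum]; rfl)⟩
  have h2 : ∀ i j, i ≠ j → B (b i) (b j) = 0 := fun i j hij => hb hij
  refine ⟨fun i => b i, fun i => (b i).2, h2, fun i q => b.ne_zero i (Subtype.ext (hY _ (b i).2 fun y hy => ?_)), h1⟩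
  obtain ⟨c, rfl⟩ := h1 y hy
  rw [map_sum]
  refine Finset.sum_eq_zero fun j _ => ?_
  by_cases e : i = j
  · subst e; rw [map_smul, q, smul_zero]
  · rw [map_smul, h2 i j e, smul_zero]

theorem hyp (h4 : finrank F V = 4) {p : V} (hp : B p p = 0) (hp0 : p ≠ 0) : ∃ f u w : V, B p f = 1 ∧ B f f = 0 ∧
    B p u = 0 ∧ B f u = 0 ∧ B p w = 0 ∧ B f w = 0 ∧ B u w = 0 ∧ B u u ≠ 0 ∧ B w w ≠ 0 ∧
      ∀ x, B p x = 0 → B f x = 0 → ∃ a b : F, x = a • u + b • w := by
  obtain ⟨z, hz⟩ : ∃ z, B p z ≠ 0 := by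
    by_contra! q
    exact hp0 (h.nd p q)
  have h2 := h.h2
  obtain ⟨f, f1, f2⟩ : ∃ f, B p f = 1 ∧ B f f = 0 := by
    refine ⟨(B p z)⁻¹ • z - (B z z / (2 * B p z * B p z)) • p, by simp [hp, hz], ?_⟩
    simp only [map_sub, map_smul, LinearMap.sub_apply, LinearMap.smul_apply, smul_eq_mul, hp, h.sy z p]
    field_simp
    ring
  let L := (B p).prod (B f)
  have hL : Function.Surjective L := fun ⟨a, b⟩ => ⟨a • f + b • p, by simp [L, f1, f2, hp, h.sy f p]⟩
  have e := L.finrank_range_add_finrank_ker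
  rw [LinearMap.range_eq_top.2 hL, finrank_top, h4, finrank_prod, finrank_self] at e
  have m : ∀ x, x ∈ LinearMap.ker L ↔ B p x = 0 ∧ B f x = 0 := fun x => by simp [L, Prod.ext_iff]
  obtain ⟨e, e1, e2, e3, e4⟩ := h.ob (LinearMap.ker L) (fun x hx q => h.nd x fun y => by
    have := q (y - B p y • f - B f y • p) ((m _).2 ⟨by simp [f1, hp], by simp [f2, h.sy f p, f1]⟩)
    simpa [h.sy x, ((m x).1 hx).1, ((m x).1 hx).2] using this) (n := 2) (by omega)
  refine ⟨f, e 0, e 1, f1, f2, ((m _).1 (e1 0)).1, ((m _).1 (e1 0)).2, ((m _).1 (e1 1)).1, ((m _).1 (e1 1)).2,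
    e2 0 1 (by decide), e3 0, e3 1, fun x a b => ?_⟩
  obtain ⟨c, hc⟩ := e4 x ((m x).2 ⟨a, b⟩)
  exact ⟨c 0, c 1, by rw [hc, Fin.sum_univ_two]⟩

theorem sing [Fintype F] (hodd : Odd (Fintype.card F)) (h4 : finrank F V = 4) : ∃ p, B p p = 0 ∧ p ≠ 0 := by
  obtain ⟨e, -, e2, e3, -⟩ := h.ob ⊤ (fun x _ q => h.nd x fun y => q y trivial) (n := 4) (by rw [finrank_top, h4])
  obtain ⟨a, b, q⟩ := FiniteField.exists_root_sum_quadratic
    (Polynomial.degree_quadratic (b := 0) (c := B (e 2) (e 2)) (e3 0)) (Polynomial.degree_quadratic (b := 0) (c := 0) (e3 1))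
    (Nat.odd_iff.1 hodd)
  have z01 := e2 0 1 (by decide); have z02 := e2 0 2 (by decide); have z12 := e2 1 2 (by decide)
  have z10 := e2 1 0 (by decide); have z20 := e2 2 0 (by decide); have z21 := e2 2 1 (by decide)
  refine ⟨a • e 0 + b • e 1 + e 2, ?_, fun r => e3 2 ?_⟩
  · simp [z01, z02, z12, z10, z20, z21] at q ⊢
    linear_combination q
  · simpa [z20, z21] using congrArg (B (e 2)) r

theorem prop [Fintype F] (hodd : Odd (Fintype.card F)) (h4 : finrank F V = 4) (C : V →ₗ[F] V →ₗ[F] F)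
    (hC : ∀ x y, C x y = C y x) (H : ∀ p, B p p = 0 → C p p = 0) : ∃ c, ∀ x y, C x y = c * B x y := by
  obtain ⟨p, hp, hp0⟩ := h.sing hodd h4
  obtain ⟨f, u, w, f1, f2, u1, u2, w1, w2, uw, uu, ww, sp⟩ := h.hyp h4 hp hp0
  have h2 := h.h2
  have c1 := H p hp
  have c2 := H f f2
  have k0 : ∀ x, B p x = 0 → B f x = 0 → C x x - B x x * C p f + 2 * C p x - B x x * C f x = 0 := fun x a b => by
    have := H (p + x - (B x x / 2) • f) (by
      simp only [map_sub, map_add, map_smul, LinearMap.sub_apply, LinearMap.add_apply, LinearMap.smul_apply, smul_eq_mul,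
        hp, a, b, f1, f2, h.sy x p, h.sy x f, h.sy f p]
      field_simp
      ring)
    simp only [map_sub, map_add, map_smul, LinearMap.sub_apply, LinearMap.add_apply, LinearMap.smul_apply, smul_eq_mul,
      c1, c2, hC x p, hC x f, hC f p] at this
    linear_combination this + (C p f + C f x) * div_mul_cancel₀ (B x x) h2
  have k : ∀ x, B p x = 0 → B f x = 0 → C x x = C p f * B x x ∧ 2 * C p x = B x x * C f x := fun x a b => by
    have q1 := k0 x a b
    have q2 := k0 (-x) (by simp [a]) (by simp [b])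
    simp only [map_neg, LinearMap.neg_apply, neg_neg] at q2
    exact ⟨mul_left_cancel₀ h2 (by linear_combination q1 + q2), mul_left_cancel₀ h2 (by linear_combination q1 - q2)⟩
  have k1 := (k u u1 u2).2
  have k2 := (k w w1 w2).2
  have k3 := (k (u + w) (by simp [u1, w1]) (by simp [u2, w2])).2
  have k4 := (k (u - w) (by simp [u1, w1]) (by simp [u2, w2])).2
  simp only [map_sub, map_add, LinearMap.sub_apply, LinearMap.add_apply, uw, h.sy w u] at k3 k4
  have b1 : C f u = 0 := mul_left_cancel₀ (mul_ne_zero h2 ww) (by linear_combination 2 * k1 - k3 - k4)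
  have b2 : C f w = 0 := mul_left_cancel₀ (mul_ne_zero h2 uu) (by linear_combination 2 * k2 - k3 + k4)
  have a1 : C p u = 0 := mul_left_cancel₀ h2 (by rw [k1, b1]; ring)
  have a2 : C p w = 0 := mul_left_cancel₀ h2 (by rw [k2, b2]; ring)
  have d : ∀ x, C x x = C p f * B x x := fun x => by
    have a : B p (x - B p x • f - B f x • p) = 0 := by simp [f1, hp]
    have b : B f (x - B p x • f - B f x • p) = 0 := by simp [f2, h.sy f p, f1]
    have q := (k _ a b).1
    obtain ⟨s, t, e⟩ := sp _ a b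
    have e1 : C p (x - B p x • f - B f x • p) = 0 := by rw [e]; simp [a1, a2]
    have e2 : C f (x - B p x • f - B f x • p) = 0 := by rw [e]; simp [b1, b2]
    simp only [map_sub, map_smul, LinearMap.sub_apply, LinearMap.smul_apply, smul_eq_mul, c1, c2, hp, f1, f2, hC x p,
      hC x f, hC f p, h.sy x p, h.sy x f, h.sy f p] at q e1 e2
    linear_combination q + 2 * B p x * e2 + 2 * B f x * e1
  refine ⟨C p f, fun x y => mul_left_cancel₀ h2 ?_⟩
  have := d (x + y)
  simp only [map_add, LinearMap.add_apply, d x, d y, hC y x, h.sy y x] at this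
  linear_combination this

theorem irr (h4 : finrank F V = 4) {v : V} (hv : B v v ≠ 0) (A : Submodule F V) (hA : ∀ x ∈ A, B v x = 0)
    (H : ∀ b, B v b = 0 → B b b ≠ 0 → ∀ x ∈ A, B b x ≠ 0 → b ∈ A) {x : V} (hx : x ∈ A) (hx0 : x ≠ 0) :
    ∀ y, B v y = 0 → y ∈ A := by
  have e := Module.Dual.finrank_ker_add_one_of_ne_zero (f := B v) (fun q => hv (by rw [q]; rfl))
  have nd : ∀ x ∈ LinearMap.ker (B v), (∀ y ∈ LinearMap.ker (B v), B x y = 0) → x = 0 := fun x hx q => h.nd x fun y => by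
    have := q (y - (B v y / B v v) • v) (by simp [hv])
    simpa [h.sy x v, LinearMap.mem_ker.1 hx] using this
  obtain ⟨e, e1, e2, e3, e4⟩ := h.ob (LinearMap.ker (B v)) nd (n := 3) (by omega)
  replace e1 : ∀ i, B v (e i) = 0 := e1
  have key : ∀ i j k : Fin 3, i ≠ j → i ≠ k → j ≠ k → e i ∈ A → e j ∉ A → False := fun i j k a b c hi hj => by
    have n1 : ∀ b, B v b = 0 → B b (e i) ≠ 0 → b ∉ A → B b b = 0 := fun b q1 q2 q3 =>
      by_contra fun q => q3 (H b q1 q _ hi q2)
    have z1 := e2 i j a; have z2 := e2 j i a.symm; have z3 := e2 i k b; have z4 := e2 k i b.symm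
    have z5 := e2 j k c; have z6 := e2 k j c.symm
    have m1 := n1 (e i + e j) (by simp [e1]) (by simpa [z2] using e3 i) fun q => hj (by simpa using A.sub_mem q hi)
    have m2 := n1 (e i + e j + e k) (by simp [e1]) (by simpa [z2, z4] using e3 i)
    have m3 := n1 (e i + e j - e k) (by simp [e1]) (by simpa [z2, z4] using e3 i)
    simp only [map_add, map_sub, LinearMap.add_apply, LinearMap.sub_apply, z1, z2, z3, z4, z5, z6] at m1 m2 m3
    have q2 : e i + e j + e k ∈ A := by_contra fun q => e3 k (by linear_combination m2 q - m1)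
    have q3 : e i + e j - e k ∈ A := by_contra fun q => e3 k (by linear_combination m3 q - m1)
    refine hj ?_
    have := A.smul_mem (2 : F)⁻¹ (A.sub_mem (A.add_mem q2 q3) (A.add_mem hi hi))
    rwa [show (2 : F)⁻¹ • (e i + e j + e k + (e i + e j - e k) - (e i + e i)) = e j by
      rw [show e i + e j + e k + (e i + e j - e k) - (e i + e i) = (2 : F) • e j by module, smul_smul,
        inv_mul_cancel₀ h.h2, one_smul]] at this
  obtain ⟨i, hi⟩ : ∃ i, e i ∈ A := by
    by_contra! q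
    refine hx0 (nd x (hA x hx) fun y hy => ?_)
    obtain ⟨c, rfl⟩ := e4 y hy
    rw [map_sum]
    exact Finset.sum_eq_zero fun j _ => by
      rw [map_smul, h.sy, show B (e j) x = 0 from by_contra fun r => q j (H _ (e1 j) (e3 j) x hx r), smul_zero]
  have all : ∀ j, e j ∈ A := fun j => by_contra fun q => by
    have ne : i ≠ j := fun r => q (r ▸ hi)
    obtain ⟨k, k1, k2⟩ := (by decide : ∀ i j : Fin 3, i ≠ j → ∃ k, i ≠ k ∧ j ≠ k) i j ne
    exact key i j k ne k1 k2 hi q
  intro y hy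
  obtain ⟨c, rfl⟩ := e4 y hy
  exact A.sum_mem fun j _ => A.smul_mem _ (all j)

end SF

end H22.Sl4
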