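import Cfsg.Agent.H22.Sl47a

/-!
# The conformal orthogonal group is maximal in `SL₄(q)`, `q` odd
-/

set_option autoImplicit false

namespace H22.Sl4
open Module H10

section lf
variable {F V : Type*} [Field F] [AddCommGroup V] [Module F V] {M : Subgroup (V ≃ₗ[F] V)} {φ f : Dual F V} {y : V}

/-- `M` contains a lift of a transvection of the hyperplane `φ = 0` -/
def Lf (M : Subgroup (V ≃ₗ[F] V)) (φ : Dual F V) (y : V) (f : Dual F V) : Prop :=
  ∃ t ∈ M, (∀ x, φ x = 0 → t x = x + f x • y) ∧ ∀ x, φ (t x) = φ x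

theorem Lf.conj (h : Lf M φ y f) {k : V ≃ₗ[F] V} (hk : k ∈ M) (e : ∀ x, φ (k x) = φ x) :
    Lf M φ (k y) (f ∘ₗ (k.symm : V →ₗ[F] V)) := by
  obtain ⟨g, hg, h, h'⟩ := h
  have e' : ∀ x, φ (k.symm x) = φ x := fun x => by rw [← e, k.apply_symm_apply]
  exact ⟨k * g * k⁻¹, M.mul_mem (M.mul_mem hk hg) (M.inv_mem hk), fun x hx => by
    simp [LinearEquiv.mul_apply, h _ ((e' x).trans hx)], fun x => by simp [LinearEquiv.mul_apply, e, e', h']⟩

theorem lf_smul (c : F) : Lf M φ (c • y) f ↔ Lf M φ y (c • f) := by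
  simp only [Lf, smul_smul, LinearMap.smul_apply, smul_eq_mul, mul_comm c]

/-- centres all of whose transvections lift -/
def lfSub (M : Subgroup (V ≃ₗ[F] V)) (φ : Dual F V) : Submodule F V where
  carrier := {v | φ v = 0 ∧ ∀ f : Dual F V, f v = 0 → Lf M φ v f}
  zero_mem' := ⟨map_zero _, fun f _ => ⟨1, M.one_mem, by simp, fun _ => rfl⟩⟩
  smul_mem' c v hv := ⟨by simp [hv.1], fun f hf => (lf_smul c).2 (hv.2 _ (by simpa using hf))⟩
  add_mem' {v w} hv hw := ⟨by simp [hv.1, hw.1], fun f hf => by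
    by_cases h : v ∈ F ∙ w
    · obtain ⟨c, rfl⟩ := Submodule.mem_span_singleton.1 h
      have : c • w + w = (c + 1) • w := by module
      rw [this] at hf ⊢
      exact (lf_smul _).2 (hw.2 _ (by simpa using hf))
    obtain ⟨f', h1, h2⟩ := exists_dual_sep h
    obtain ⟨k, hk, hk', e⟩ := hw.2 f' (h1 _ (Submodule.mem_span_singleton_self w))
    have h3 : k v = v + w := by simp [hk' v hv.1, h2]
    convert (hv.2 (f ∘ₗ (k : V →ₗ[F] V)) (by simpa [h3] using hf)).conj hk e using 1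
    · exact h3.symm
    · ext; simp⟩

theorem map_lfSub (hv : y ∈ lfSub M φ) {k : V ≃ₗ[F] V} (hk : k ∈ M) (e : ∀ x, φ (k x) = φ x) : k y ∈ lfSub M φ :=
  ⟨(e y).trans hv.1, fun f hf => by
    convert (hv.2 (f ∘ₗ (k : V →ₗ[F] V)) (by simpa using hf)).conj hk e using 1
    ext; simp⟩

theorem full_of_lf (H : ∀ y, φ y = 0 → y ∈ lfSub M φ) {x0 : V} (h0 : φ x0 = 1) {n : V ≃ₗ[F] V} (hn : n ∈ M)
    (n1 : ∀ x, φ x = 0 → n x = x) (n2 : φ (n x0) = 1) (n3 : n x0 ≠ x0) (hz : ∀ y, ∃ z, φ z = 0 ∧ z ∉ F ∙ y) :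
    ∀ y, φ y = 0 → y ∈ fullSub M := by
  have d : ∀ x, φ (x - φ x • x0) = 0 := fun x => by simp [h0]
  have u1 : φ (n x0 - x0) = 0 := by simp [h0, n2]
  have t0 : Tv M (n x0 - x0) φ := ⟨n, hn, fun x => by
    have := n1 _ (d x)
    rw [map_sub, map_smul] at this
    linear_combination (norm := module) this⟩
  have st : ∀ u y, φ u = 0 → φ y = 0 → Tv M u φ → u ∉ F ∙ y → Tv M y φ := fun u y a b c q => by
    obtain ⟨f, f1, f2⟩ := exists_dual_sep q
    obtain ⟨k, hk, k1, k2⟩ := (H y b).2 f (f1 _ (Submodule.mem_span_singleton_self y))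
    have e : φ ∘ₗ (k.symm : V →ₗ[F] V) = φ := by ext x; simp [← k2 (k.symm x)]
    have := (e ▸ c.conj hk).sub_left c a
    rwa [k1 u a, f2, one_smul, add_sub_cancel_left] at this
  have al : ∀ y, φ y = 0 → Tv M y φ := fun y b => by
    by_cases q : n x0 - x0 ∈ F ∙ y
    · obtain ⟨z, z1, z2⟩ := hz y
      refine st z y z1 b (st _ z u1 z1 t0 fun r => z2 ?_) z2
      obtain ⟨c, hc⟩ := Submodule.mem_span_singleton.1 r
      have c0 : c ≠ 0 := fun r => n3 (sub_eq_zero.1 (by rw [← hc, r, zero_smul]))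
      rw [← hc] at q
      simpa [c0] using Submodule.smul_mem _ c⁻¹ q
    · exact st _ y u1 b t0 q
  intro y hy f hf
  obtain ⟨t, ht, t1, t2⟩ := (H y hy).2 f hf
  obtain ⟨g, hg, g1⟩ := al (x0 + f x0 • y - t x0) (by simp [hy, t2])
  refine ⟨g * t, M.mul_mem hg ht, fun x => ?_⟩
  have := t1 _ (d x)
  simp only [map_sub, map_smul, smul_eq_mul] at this
  rw [LinearEquiv.mul_apply, g1, t2]
  linear_combination (norm := module) this

end lf

variable {F V : Type*} [Field F] [AddCommGroup V] [Module F V] [FiniteDimensional F V] {B : V →ₗ[F] V →ₗ[F] F}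
  {M : Subgroup (V ≃ₗ[F] V)}

/-- `M` contains `SO(B)` -/
def HM (B : V →ₗ[F] V →ₗ[F] F) (M : Subgroup (V ≃ₗ[F] V)) : Prop :=
  ∀ L : V →ₗ[F] V, LinearMap.det L = 1 → (∀ x y, B (L x) (L y) = B x y) → ∃ k ∈ M, ∀ x, k x = L x

namespace SF
variable (h : SF B) (hM : HM B M)
include h hM

theorem sg {p w : V} (hp : B p p = 0) (hw : B p w = 0) :
    ∃ k ∈ M, ∀ x, k x = x + B w x • p - B p x • w - (B w w / 2 * B p x) • p := by
  obtain ⟨L, d, e⟩ : ∃ L : V →ₗ[F] V, LinearMap.det L = 1 ∧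
      ∀ x, L x = x + B w x • p - B p x • w - (B w w / 2 * B p x) • p := by
    refine ⟨LinearMap.transvection (B w + (B w w / 2) • B p) p ∘ₗ LinearMap.transvection (-B p) w,
      by simp [hp, hw, h.sy w p], fun x => ?_⟩
    simp only [LinearMap.comp_apply, LinearMap.transvection.apply, map_add, map_smul, LinearMap.add_apply,
      LinearMap.smul_apply, LinearMap.neg_apply, smul_eq_mul, hw]
    linear_combination (norm := module) congrArg (fun c => (B p x * c) • p) (div_mul_cancel₀ (B w w) h.h2)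
  obtain ⟨k, hk, q⟩ := hM L d fun x y => by
    simp only [e, map_add, map_sub, map_smul, LinearMap.add_apply, LinearMap.sub_apply, LinearMap.smul_apply,
      smul_eq_mul, hp, hw, h.sy w p, h.sy x p, h.sy x w]
    linear_combination (-B p x * B p y) * div_mul_cancel₀ (B w w) h.h2
  exact ⟨k, hk, fun x => (q x).trans (e x)⟩

theorem jb (h4 : finrank F V = 4) {v b : V} (hv : B v v ≠ 0) (hb : B b b ≠ 0) (hw : B v b = 0) :
    ∃ k ∈ M, ∀ x, k x = -x + (2 / B b b * B b x) • b + (2 / B v v * B v x) • v := by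
  obtain ⟨L, d, e⟩ : ∃ L : V →ₗ[F] V, LinearMap.det L = 1 ∧
      ∀ x, L x = -x + (2 / B b b * B b x) • b + (2 / B v v * B v x) • v := by
    refine ⟨(-1 : F) • (LinearMap.transvection (-(2 / B v v) • B v) v ∘ₗ
      LinearMap.transvection (-(2 / B b b) • B b) b), ?_, fun x => ?_⟩
    · rw [LinearMap.det_smul, h4, LinearMap.det_comp, LinearMap.transvection.det, LinearMap.transvection.det]
      simp only [LinearMap.smul_apply, smul_eq_mul]
      field_simp
      ring
    · simp only [LinearMap.comp_apply, LinearMap.transvection.apply, map_add, map_smul,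
        LinearMap.smul_apply, smul_eq_mul, hw]
      module
  obtain ⟨k, hk, q⟩ := hM L d fun x y => by
    simp only [e, map_add, map_neg, map_smul, LinearMap.add_apply, LinearMap.neg_apply, LinearMap.smul_apply,
      smul_eq_mul, hw, h.sy b v, h.sy x b, h.sy x v]
    field_simp
    ring
  exact ⟨k, hk, fun x => (q x).trans (e x)⟩

theorem full (h4 : finrank F V = 4) {m : V ≃ₗ[F] V} (hm : m ∈ M) {p v : V} (hp : B p p = 0) (hv : B v v ≠ 0)
    (e : ∀ x, B v (m x) = B p x) (x : V) : x ∈ fullSub M := by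
  have e' : ∀ x, B p (m.symm x) = B v x := fun x => by rw [← e, m.apply_symm_apply]
  have hp0 : p ≠ 0 := fun r => hv (by rw [← e', r]; simp)
  have T : ∀ w, B p w = 0 → ∃ t ∈ M, ∀ x, t x =
      x + B w (m.symm x) • m p - B v x • m w - (B w w / 2 * B v x) • m p := fun w hw => by
    obtain ⟨k, hk, q⟩ := h.sg hM hp hw
    exact ⟨m * k * m⁻¹, M.mul_mem (M.mul_mem hm hk) (M.inv_mem hm), fun x => by simp [LinearEquiv.mul_apply, q, e']⟩
  have a : m p ∈ lfSub M (B v) := ⟨(e p).trans hp, fun f hf => by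
    obtain ⟨w, hw⟩ := h.rep (f ∘ₗ (m : V →ₗ[F] V))
    have w1 : B p w = 0 := by rw [h.sy, hw]; exact hf
    obtain ⟨t, ht, q⟩ := T w w1
    exact ⟨t, ht, fun x hx => by simp [q, hx, hw], fun x => by simp [q, e, hp, w1]⟩⟩
  have H := h.irr h4 hv (lfSub M (B v)) (fun x hx => hx.1) (fun b b1 b2 x hx b3 => by
    obtain ⟨k, hk, q⟩ := h.jb hM h4 hv b2 b1
    have := Submodule.add_mem _ (map_lfSub hx hk fun x => by
      simp only [q, map_add, map_neg, map_smul, smul_eq_mul, b1]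
      field_simp
      ring) hx
    rw [q, hx.1] at this
    have c0 : 2 / B b b * B b x ≠ 0 := mul_ne_zero (div_ne_zero h.h2 b2) b3
    rwa [show -x + (2 / B b b * B b x) • b + (2 / B v v * 0) • v + x = (2 / B b b * B b x) • b by module,
      Submodule.smul_mem_iff _ c0] at this) a (by simpa using hp0)
  obtain ⟨f, u, w, f1, f2, u1, u2, w1, w2, uw, uu, ww, -⟩ := h.hyp h4 hp hp0
  obtain ⟨t, ht, q⟩ := T w w1
  have y1 : B v (m p) = 0 := (e p).trans hp
  have y2 : B v (m u) = 0 := (e u).trans u1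
  have y3 : B v (m w) = 0 := (e w).trans w1
  have x0 : B v (m f) = 1 := (e f).trans f1
  let φ : Dual F V := B w ∘ₗ (m.symm : V →ₗ[F] V)
  let ψ : Dual F V := (B u u)⁻¹ • B u ∘ₗ (m.symm : V →ₗ[F] V)
  have p1 : φ (m p) = 0 := by simp [φ, h.sy w p, w1]
  have p2 : φ (m u) = 0 := by simp [φ, h.sy w u, uw]
  have p3 : φ (m w) = B w w := by simp [φ]
  have s1 : ψ (m p) = 0 := by simp [ψ, h.sy u p, u1]
  have s2 : ψ (m u) = 1 := by simp [ψ, uu]
  replace q : ∀ x, t x = x + φ x • m p - B v x • m w - (B w w / 2 * B v x) • m p := q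
  clear_value φ ψ
  obtain ⟨α, ha, a1, a2⟩ := (H _ y1).2 ψ s1
  obtain ⟨β, hb, b1, b2⟩ := (H _ y2).2 φ p2
  have t2 : ∀ x, B v (t x) = B v x := fun x => by simp [q, y1, y3]
  have n2 : ∀ x, B v ((t * β * α).symm x) = B v x := fun x => by
    conv_rhs => rw [← (t * β * α).apply_symm_apply x]
    simp only [LinearEquiv.mul_apply, t2, a2, b2]
  have Y := full_of_lf H x0 (n := (t * β * α)⁻¹ * (α * β))
    (M.mul_mem (M.inv_mem (M.mul_mem (M.mul_mem ht hb) ha)) (M.mul_mem ha hb)) (fun x hx => by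
      rw [LinearEquiv.mul_apply, LinearEquiv.coe_inv, LinearEquiv.symm_apply_eq]
      simp only [LinearEquiv.mul_apply, a1 x hx, b1 x hx, map_add, map_smul, a1 _ y2, b1 _ y1, q, hx, p1, p2, s2, y1, y2]
      module) (by rw [LinearEquiv.mul_apply, LinearEquiv.coe_inv, n2, LinearEquiv.mul_apply, a2, b2, x0]) (fun r => by
      rw [LinearEquiv.mul_apply, LinearEquiv.coe_inv, LinearEquiv.symm_apply_eq] at r
      have r1 := a1 (β (m f) - m f) (by simp [b2])
      have r2 := b1 (α (m f) - m f) (by simp [a2])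
      rw [map_sub, sub_eq_iff_eq_add] at r1 r2
      replace r := congrArg φ r
      simp only [LinearEquiv.mul_apply, q, b2, a2, x0] at r
      simp only [r1, r2, map_add, map_sub, map_smul, p1, p2, p3, smul_eq_mul] at r
      exact ww (by linear_combination r)) fun y => by
      by_contra! r
      obtain ⟨c, hc⟩ := Submodule.mem_span_singleton.1 (r _ y1)
      obtain ⟨d, hd⟩ := Submodule.mem_span_singleton.1 (r _ y2)
      rw [← hc, map_smul, smul_eq_mul, mul_eq_zero] at s1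
      rw [← hd, map_smul, smul_eq_mul] at s2
      rcases s1 with s1 | s1
      · exact hp0 (by simpa [s1] using hc.symm)
      · simp [s1] at s2
  obtain ⟨z, z1, z2⟩ : ∃ z, B p z = 0 ∧ B v z ≠ 0 := by
    by_contra! r
    exact hv (r v (by rw [h.sy, r p hp]))
  have z3 : z ∈ fullSub M := by
    simpa using map_mem_fullSub (Y (m z) ((e z).trans z1)) (M.inv_mem hm)
  simpa using Submodule.add_mem _ (Y (x - (B v x / B v z) • z) (by simp [z2])) (Submodule.smul_mem _ (B v x / B v z) z3)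

theorem dich [Fintype F] (hodd : Odd (Fintype.card F)) (h4 : finrank F V = 4) {m : V ≃ₗ[F] V} (hm : m ∈ M) :
    (∀ x, x ∈ fullSub M) ∨ ∃ c, ∀ x y, c * B (m x) (m y) = B x y := by
  let e := LinearEquiv.ofBijective B
    ⟨(injective_iff_map_eq_zero _).2 fun x hx => h.nd x fun y => by rw [hx]; rfl, h.rep⟩
  let L : V →ₗ[F] V := (e.symm : Dual F V →ₗ[F] V) ∘ₗ (m.symm : V →ₗ[F] V).dualMap ∘ₗ B
  have hL : ∀ p x, B (L p) x = B p (m.symm x) := fun p x =>
    LinearMap.congr_fun (e.apply_symm_apply ((m.symm : V →ₗ[F] V).dualMap (B p))) x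
  by_cases q : ∀ p, B p p = 0 → B (L p) (L p) = 0
  · obtain ⟨c, hc⟩ := h.prop hodd h4 (B.compl₁₂ L L) (fun x y => h.sy _ _) q
    have : ∀ y, L y = c • m y := fun y => by
      rw [← map_smul, ← m.symm_apply_eq, ← sub_eq_zero]
      refine h.nd _ fun x => ?_
      rw [h.sy, map_sub, map_smul, ← hL]
      exact sub_eq_zero.2 (hc x y)
    exact .inr ⟨c, fun x y => by simpa [this] using hL x (m y)⟩
  · push Not at q
    obtain ⟨p, hp, hv⟩ := q
    exact .inl (h.full hM h4 hm hp hv fun x => by simp [hL])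

end SF

open Matrix Cfsg Cfsg.Geo in
theorem sl4_7 {F : Type*} [Field F] [Fintype F] : Odd (Fintype.card F) → ∀ Q : (Fin 4 → F) → F,
    Cfsg.Geo.IsNondegenerateQuadraticForm Q → Cfsg.Geo.IsMaximalIn (Cfsg.Geo.specialLinear (Fin 4) F)
      (Cfsg.Geo.quadSimilarityGroup Q ⊓ Cfsg.Geo.specialLinear (Fin 4) F) := fun hodd Q hQ => by
  obtain ⟨Q, rfl, hN⟩ := exists_ofQuad hQ
  have h : SF (QuadraticMap.polarBilin Q) :=
    ⟨two_ne_zero_of_odd_card hodd, fun x y => QuadraticMap.polar_comm _ _ _, hN.eq_zero⟩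
  have h4 : finrank F (Fin 4 → F) = 4 := by simp
  have hq : ∀ x, QuadraticMap.polarBilin Q x x = 2 * Q x := fun x => by
    simp [QuadraticMap.polar_self]
  obtain ⟨p, hp, hp0⟩ := h.sing hodd h4
  obtain ⟨f, u, w, f1, f2, u1, u2, w1, w2, uw, uu, ww, -⟩ := h.hyp h4 hp hp0
  refine ⟨lt_of_le_of_ne inf_le_right fun h0 => ?_, fun M hM hM' => ?_⟩
  · obtain ⟨g, hg, hg'⟩ := exists_sl_tv u (QuadraticMap.polarBilin Q f) u2
    obtain ⟨c, hc⟩ := (h0.ge hg).1
    have := congrArg (2 * ·) (hc p)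
    simp only [← mul_assoc, mul_comm (2 : F) c] at this
    rw [mul_assoc, ← hq, ← hq, hp, hg', h.sy f p, f1, one_smul] at this
    simp only [map_add, LinearMap.add_apply, hp, u1, h.sy u p] at this
    exact uu (by linear_combination this)
  by_cases h3 : M ≤ quadSimilarityGroup Q
  · exact Or.inl (le_antisymm (le_inf h3 hM') hM)
  obtain ⟨g, hg, hg'⟩ := SetLike.not_le_iff_exists.1 h3
  refine Or.inr (le_antisymm hM' (specialLinear_le_of_fullSub ((h.dich (m := glEquiv g) (fun L l1 l2 => ?_) hodd h4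
    (Subgroup.mem_map_of_mem _ hg)).resolve_right fun ⟨c, hc⟩ => hg' ?_)))
  · let k := L.equivOfDetNeZero (by rw [l1]; exact one_ne_zero)
    have hk : ∀ x, k x = L x := fun x => rfl
    refine ⟨k, ⟨glEquiv.symm k, hM ⟨⟨1, fun v => mul_left_cancel₀ h.h2 ?_⟩, H09.mem_specialLinear.2 ?_⟩,
      glEquiv.apply_symm_apply k⟩, hk⟩
    · rw [glEquiv_symm_mulVec, hk, ← hq, l2, hq]; simp
    · rw [← l1, ← LinearMap.det_toLin']
      congr 1
      exact LinearMap.ext fun x => glEquiv_symm_mulVec k x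
  · have c0 : c ≠ 0 := fun r => by simpa [r, f1] using (hc p f).trans f1
    refine ⟨(Units.mk0 c c0)⁻¹, fun v => mul_left_cancel₀ (mul_ne_zero c0 h.h2) ?_⟩
    have := hc v v
    rw [hq, hq, glEquiv_apply] at this
    simp only [Units.val_inv_eq_inv_val, Units.val_mk0]
    field_simp
    linear_combination this

end H22.Sl4
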