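import Mathlib
import Cfsg.Agent.H07.Deg
import Cfsg.Agent.H07.MinNA
import Cfsg.Agent.H27.SClosed2

/-!
# Solvable groups with squarefree character degrees have derived length at most four
-/

set_option autoImplicit false

namespace H22.SqF
open Cfsg Subgroup MulAction H05 H06

theorem small {Q A : Type*} [Group Q] [Finite Q] [CommGroup A] [MulDistribMulAction Q A] {p : ℕ} [hp : Fact p.Prime]
    (hQ : IsPGroup p Q) (inj : ∀ x : Q, (∀ a : A, x • a = a) → x = 1) (hA : ∀ a : A, a ^ p = 1 → a = 1)
    (hs : ∀ a : A, (stabilizer Q a).index ∣ p) : Nat.card Q ∣ p := by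
  by_contra hc
  have ix : ∀ a : A, stabilizer Q a ≠ ⊤ → (stabilizer Q a).index = p := fun a h =>
    ((Nat.dvd_prime hp.out).1 (hs a)).resolve_left fun e => h (index_eq_one.1 e)
  have nm : ∀ M : Subgroup Q, M.index = p → M.Normal := fun M h => by
    obtain ⟨n, hn⟩ := hQ.exists_card_eq
    refine normal_of_index_eq_minFac_card ?_
    rw [h, hn, hp.out.pow_minFac]
    rintro rfl
    exact hc (by simp [hn])
  have mx : ∀ a b : A, stabilizer Q a ≠ ⊤ → stabilizer Q a ≤ stabilizer Q b → stabilizer Q b ≠ ⊤ →
      stabilizer Q b ≤ stabilizer Q a := fun a b ha h hb => by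
    have := relIndex_mul_index h
    rw [ix a ha, ix b hb] at this
    exact relIndex_eq_one.1 (mul_right_cancel₀ hp.out.ne_zero (this.trans (one_mul _).symm))
  obtain ⟨a, ha⟩ : ∃ a : A, stabilizer Q a ≠ ⊤ := by
    by_contra! q
    have : Subsingleton Q := ⟨fun x y => by
      rw [inj x fun a => (q a).ge (mem_top x), inj y fun a => (q a).ge (mem_top y)]⟩
    exact hc (by simp)
  obtain ⟨⟨y, hy⟩, y1⟩ := (ne_bot_iff_exists_ne_one (H := stabilizer Q a)).1 fun e => hc (by rw [← index_bot, ← e, ix a ha])
  obtain ⟨b, hb⟩ : ∃ b : A, y • b ≠ b := by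
    by_contra! q
    exact y1 (Subtype.ext (inj y q))
  have hb' : stabilizer Q b ≠ ⊤ := fun e => hb (e.ge (mem_top y))
  have yab : y ∉ stabilizer Q (a * b) := fun e => hb (by
    rw [mem_stabilizer_iff, smul_mul', show y • a = a from hy] at e
    exact mul_left_cancel e)
  obtain ⟨x, x1, x2⟩ := SetLike.not_le_iff_exists.1 fun e : stabilizer Q (a * b) ≤ stabilizer Q a =>
    yab (mx _ _ (fun e => yab (e.ge (mem_top y))) e ha hy)
  have fx : ∀ a : A, stabilizer Q a ≠ ⊤ → ∀ m ∈ stabilizer Q a, m • x • a = x • a := fun a ha m hm => by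
    have : (x⁻¹ * m * x⁻¹⁻¹) • a = a := (nm _ (ix a ha)).conj_mem m hm x⁻¹
    rwa [inv_inv, mul_smul, mul_smul, inv_smul_eq_iff] at this
  have e : x • a / a = b / x • b := by
    rw [div_eq_div_iff_mul_eq_mul, ← smul_mul', show x • (a * b) = a * b from x1, mul_comm]
  have t : stabilizer Q (x • a / a) = ⊤ := by
    by_contra q
    refine hb (mx b _ hb' (fun m hm => ?_) q ?_)
    · rw [mem_stabilizer_iff, e, smul_div', fx b hb' m hm, show m • b = b from hm]
    · rw [mem_stabilizer_iff, smul_div', fx a ha y hy, show y • a = a from hy]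
  have pw : ∀ n : ℕ, x ^ n • a = (x • a / a) ^ n * a := fun n => by
    induction n with
    | zero => simp
    | succ n ih =>
      rw [pow_succ', mul_smul, ih, smul_mul', smul_pow', show x • (x • a / a) = x • a / a from t.ge (mem_top x), pow_succ,
        mul_assoc, div_mul_cancel]
  have := nm _ (ix a ha)
  have z : x ^ p • a = a := by simpa [ix a ha] using pow_index_mem (stabilizer Q a) x
  rw [pw, mul_eq_right] at z
  exact x2 (div_eq_one.1 (hA _ z))

/-- automorphisms act on linear characters -/
@[reducible] def act (V : Type*) [Group V] : MulDistribMulAction (MulAut V) (V →* ℂˣ) where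
  smul α l := l.comp α.symm.toMonoidHom
  one_smul _ := rfl
  mul_smul _ _ _ := rfl
  smul_mul _ _ _ := rfl
  smul_one _ := rfl

/-- all degrees are squarefree -/
def SQ (G : Type*) [Group G] : Prop := ∀ χ : IrrCharacter G, Squarefree (charDegree (χ : G → ℂ))

variable {G : Type*} [Group G] [Finite G]

theorem SQ.sub (h : SQ G) (N : Subgroup G) [N.Normal] : SQ N := fun θ =>
  (H07.exists_over_dvd N θ).elim fun χ e => (h χ).squarefree_of_dvd e

theorem dvd_of_sq {p k n : ℕ} (hp : p.Prime) (h : Squarefree n) (e : n ∣ p ^ k) : n ∣ p := by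
  obtain ⟨i, -, rfl⟩ := (Nat.dvd_prime_pow hp).1 e
  by_cases i0 : i = 0
  · simp [i0]
  · rw [((Nat.squarefree_pow_iff hp.ne_one i0).1 h).2, pow_one]

theorem SQ.pg (h : SQ G) {p : ℕ} [hp : Fact p.Prime] (hG : IsPGroup p G) : derivedSeries G 2 = ⊥ := by
  have := Fintype.ofFinite G
  have := hG.isNilpotent
  obtain ⟨n, hn⟩ := hG.exists_card_eq
  refine eq_bot_iff.2 fun g hg => H05.eq_one_of_forall_irr fun χ => χ.2.isCharacter.mem_charKer.1
    (H07.taketa_step (M := commutator G) (H06.isMonomialChar_of_nilpotent χ.2) (fun ψ hψ lt => ?_) hg)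
  refine (H07.commutator_le_charKer_iff hψ).2 ((H07.deg_eq_one_iff hψ.isCharacter).1 ?_)
  have a := Nat.le_of_dvd hp.out.pos (dvd_of_sq hp.out (h χ) (hn ▸ χ.2.charDegree_dvd_card))
  exact ((Nat.dvd_prime hp.out).1 (dvd_of_sq hp.out (h ⟨ψ, hψ⟩) (hn ▸ hψ.charDegree_dvd_card))).resolve_right (lt.trans_le a).ne

theorem SQ.nil (h : SQ G) [Group.IsNilpotent G] : derivedSeries G 2 = ⊥ := by
  have := Fintype.ofFinite G
  have e := Sylow.directProductOfNormal (G := G) fun P => inferInstance
  refine eq_bot_iff.2 fun g hg => e.symm.map_eq_one_iff.1 (funext fun p => funext fun P => ?_)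
  have := Fact.mk (Nat.prime_of_mem_primeFactors p.2)
  have := map_derivedSeries_le_derivedSeries (((Pi.evalMonoidHom _ P).comp (Pi.evalMonoidHom _ p)).comp
    e.symm.toMonoidHom) 2 (mem_map_of_mem _ hg)
  exact ((h.sub P).pg P.2).le this

theorem SQ.cent (h : SQ G) [Group.IsSolvable G] (V : Subgroup G) [V.Normal]
    (hmin : ∀ M : Subgroup G, M.Normal → M ≤ V → M = ⊥ ∨ M = V) [IsMulCommutative V] {r : ℕ} (hr : r.Prime)
    (hV : ∀ x ∈ V, x ^ r = 1) : derivedSeries G 2 ≤ centralizer (V : Set G) := by
  let φ := (MulAut.conjNormal (H := V)).rangeRestrict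
  have hφ : Function.Surjective φ := MonoidHom.rangeRestrict_surjective _
  have k : ∀ g, φ g = 1 ↔ g ∈ centralizer (V : Set G) := fun g => ⟨fun e v hv => by
    have := congrArg (fun α => (α.1 ⟨v, hv⟩ : G)) e
    exact (mul_inv_eq_iff_eq_mul.1 this).symm, fun e => Subtype.ext (MulEquiv.ext fun v => Subtype.ext
      (mul_inv_eq_iff_eq_mul.2 (e v v.2).symm))⟩
  have := solvable_of_surjective hφ
  have key : ∀ p : Nat.Primes, commutator (MulAut.conjNormal (H := V)).range ≤
      centralizer (pCore p (MulAut.conjNormal (H := V)).range : Set (MulAut.conjNormal (H := V)).range) := fun p => by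
    have := Fact.mk p.2
    by_cases e : (p : ℕ) = r
    · subst e
      have := H27.le_centralizer_of_minNormal (K := (pCore p _).comap φ) (H02.isPGroup_of_pow_eq_one hV) hmin fun y hy => by
        obtain ⟨m, hm⟩ := H02.pCore_isPGroup p _ ⟨φ y, hy⟩
        exact ⟨m, (k _).1 (by rw [map_pow]; exact congrArg Subtype.val hm)⟩
      intro a _ b hb
      obtain ⟨b, rfl⟩ := hφ b
      rw [(k b).2 (this hb), one_mul, mul_one]
    letI := act V
    have := Fintype.ofFinite V
    have c := small (A := V →* ℂˣ) (H02.pCore_isPGroup p (MulAut.conjNormal (H := V)).range) (fun x hx =>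
      Subtype.ext (Subtype.ext (inv_eq_one.1 (MulEquiv.ext fun v => mul_inv_eq_one.1 (H05.eq_one_of_forall_irr fun χ => by
        obtain ⟨l, hl⟩ := χ.2.exists_monoidHom_of_comm
        have : l (x.1.1.symm v) = l v := DFunLike.congr_fun (hx l) v
        simp [hl, this]))))) (fun l hl => MonoidHom.ext fun v => by
          have a : l v ^ r = 1 := by rw [← map_pow, show v ^ r = 1 from Subtype.ext (hV v v.2), map_one]
          have b : l v ^ (p : ℕ) = 1 := DFunLike.congr_fun hl v
          have := pow_gcd_eq_one.2 ⟨b, a⟩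
          rwa [((Nat.coprime_primes p.2 hr).2 e).gcd_eq_one, pow_one] at this) fun l => by
      obtain ⟨n, hn⟩ := (H02.pCore_isPGroup p (MulAut.conjNormal (H := V)).range).exists_card_eq
      refine dvd_of_sq p.2 ?_ (hn ▸ index_dvd_card _)
      have := Fintype.ofFinite G
      obtain ⟨χ, h1, h2⟩ := H06.exists_irr_over V (H05.isIrrCharacter_monoidHom l)
      have i := (Dvd.intro _ rfl).trans (H07.index_inertia_dvd V h1 (H05.isIrrCharacter_monoidHom l) h2)
      have j : H06.inertia V (fun v => (l v : ℂ)) = (stabilizer _ l).comap φ := by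
        ext g
        rw [mem_comap, ← inv_mem_iff (x := φ g), H06.mem_inertia', mem_stabilizer_iff, MonoidHom.ext_iff]
        exact forall_congr' fun v => Units.ext_iff.symm
      rw [j, index_comap_of_surjective _ hφ] at i
      have m : stabilizer (pCore p (MulAut.conjNormal (H := V)).range) l =
          (stabilizer (MulAut.conjNormal (H := V)).range l).subgroupOf _ := Subgroup.ext fun _ => Iff.rfl
      rw [m]
      exact (h ⟨χ, h1⟩).squarefree_of_dvd ((H27.relIndex_dvd_index_of_normal_right _
        (pCore p (MulAut.conjNormal (H := V)).range)).trans i)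
    have := isCyclic_of_card_dvd_prime c
    exact H16.commutator_le_centralizer_of_isCyclic _
  have c1 : commutator (MulAut.conjNormal (H := V)).range ≤
      centralizer (fittingSubgroup (MulAut.conjNormal (H := V)).range : Set (MulAut.conjNormal (H := V)).range) := by
    rw [le_centralizer_iff, H02.fitting_eq_iSup_pCore]
    exact iSup_le fun p => le_centralizer_iff.1 (key p)
  have c2 : derivedSeries (MulAut.conjNormal (H := V)).range 2 = ⊥ :=
    commutator_eq_bot_iff_le_centralizer.2 (c1.trans (centralizer_le (c1.trans (H02.centralizer_fitting_le _))))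
  intro g hg
  exact (k g).1 (mem_bot.1 (c2.le (map_derivedSeries_le_derivedSeries φ 2 (mem_map_of_mem _ hg))))

universe u

theorem nil2 (n : ℕ) : ∀ (G : Type u) [Group G] [Finite G] [Group.IsSolvable G], Nat.card G = n → SQ G →
    Group.IsNilpotent (derivedSeries G 2) := by
  induction n using Nat.strong_induction_on with
  | _ n ih =>
    intro G _ _ _ hn h
    rcases subsingleton_or_nontrivial G with s | s
    · infer_instance
    obtain ⟨V, _, V0, hmin, _, r, hr, hV⟩ := H02.exists_minimal_normal_elementary (G := G)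
    have i := ih _ (by
      rw [← hn, card_eq_card_quotient_mul_card_subgroup V]
      exact lt_mul_of_one_lt_right Nat.card_pos ((one_lt_card_iff_ne_bot V).2 V0)) (G ⧸ V) rfl fun ψ => h (H07.inflIrr V ψ)
    refine Subgroup.isNilpotent_of_ker_le_center (((QuotientGroup.mk' V).comp (derivedSeries G 2).subtype).codRestrict (derivedSeries (G ⧸ V) 2)
      fun x => map_derivedSeries_le_derivedSeries (QuotientGroup.mk' V) 2 (mem_map_of_mem _ x.2)) fun x hx => mem_center_iff.2 fun y => ?_
    exact Subtype.ext (h.cent V hmin hr hV y.2 x ((QuotientGroup.eq_one_iff _).1 (congrArg Subtype.val hx))).symm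

theorem main [Group.IsSolvable G] (h : SQ G) : derivedSeries G 4 = ⊥ := by
  have := nil2 _ G rfl h
  have := derivedSeries_normal G 2
  have e := congrArg (map (derivedSeries G 2).subtype) (h.sub (derivedSeries G 2)).nil
  rwa [Subgroup.map_bot, show derivedSeries (derivedSeries G 2) 2 = ⁅⁅⊤, ⊤⁆, ⁅⊤, ⊤⁆⁆ from rfl, map_commutator, map_commutator,
    ← MonoidHom.range_eq_map, range_subtype] at e

end H22.SqF
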