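import Cfsg.Agent.L.Jt0

/-! Part V of the interface `L.Jt`. -/

set_option autoImplicit false
open Subgroup BG

namespace H22.TV
universe u

theorem v : L.Jt.VStmt.{u} := by
  intro G _ _ A N B D z δ cf nb xb δN δz δ3 c32 hB hD
  classical
  have zz : z * z = 1 := cf.sq z (cf.BA cf.zB)
  have zV : z ∈ A ⊓ C_[δ] := ⟨cf.BA cf.zB, mem_cent1.2 (mem_cent1.1 δz).symm⟩
  have nB : ∀ x ∈ A ⊓ C_[δ], x ≠ 1 → x ≠ z → x ∉ B := fun x hx h1 h2 h => (hB x h hx.2).elim h1 h2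
  have pick : ∀ F : Finset G, F.card ≤ 3 → ∃ r ∈ D, r ∈ C_[δ] ∧ r ∉ F := by
    intro F hF
    obtain ⟨x, hx, hxF⟩ : ∃ x ∈ A ⊓ C_[δ], x ∉ F ∪ F.image (· * z) ∪ {1, z} := by
      by_contra! h
      have h1 : Nat.card ↥(A ⊓ C_[δ]) ≤ (F ∪ F.image (· * z) ∪ {1, z}).card := by
        rw [← Fintype.card_coe, ← Nat.card_eq_fintype_card]
        exact Nat.card_le_card_of_injective (fun x => ⟨x.1, h x.1 x.2⟩) fun a b e => Subtype.ext (Subtype.mk.inj e)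
      have h2 := Finset.card_union_le (F ∪ F.image (· * z)) {1, z}
      have h3 := Finset.card_union_le F (F.image (· * z))
      have h4 := Finset.card_image_le (s := F) (f := (· * z))
      have h5 := Finset.card_le_two (a := (1 : G)) (b := z)
      omega
    simp only [Finset.mem_union, Finset.mem_image, Finset.mem_insert, Finset.mem_singleton, not_or, not_exists,
      not_and] at hxF
    obtain ⟨⟨f1, f2⟩, f3, f4⟩ := hxF
    rcases hD x hx.1 hx.2 (nB x hx f3 f4) with h | h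
    · exact ⟨x, h, hx.2, f1⟩
    · exact ⟨x * z, h, mul_mem hx.2 zV.2, fun h' => f2 _ h' (by rw [mul_assoc, zz, mul_one])⟩
  obtain ⟨t, tD, tδ, -⟩ := pick ∅ (by simp)
  refine ⟨fun x hx h1 h2 => ⟨fun h h' => nB x hx h1 h2 (nb.a x h h'),
    fun h => (hD x hx.1 hx.2 (nB x hx h1 h2)).resolve_right h⟩, ?_, ?_⟩
  · by_contra! h
    obtain ⟨s, sD, sδ, hs⟩ := pick {t} (by simp)
    obtain ⟨r, rD, rδ, hr⟩ := pick {t, s, s * t} Finset.card_le_three
    simp only [Finset.mem_insert, Finset.mem_singleton, not_or] at hs hr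
    have h1 := h s sD sδ r rD rδ (Ne.symm hr.2.1)
    refine (xb.one t tD s sD r rD (h s sD sδ t tD tδ hs) (h r rD rδ t tD tδ hr.1) hr.2.1 hr.2.2).1 h1
      (h _ h1 (mul_mem sδ rδ) t tD tδ fun e => hr.2.2 ?_)
    rw [← e, ← mul_assoc, cf.sq s (cf.DA s sD).1, one_mul]
  · have mv : ∀ g ∈ N, g * t = t * g → ∀ s ∈ {s | s ∈ D ∧ s * t ∈ D}, g * s * g⁻¹ ∈ {s | s ∈ D ∧ s * t ∈ D} := by
      intro g hg e s hs
      refine ⟨cf.Dc g hg s hs.1, ?_⟩
      have := cf.Dc g hg _ hs.2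
      rwa [show g * (s * t) * g⁻¹ = g * s * g⁻¹ * (g * t * g⁻¹) by group, e, mul_inv_cancel_right] at this
    have e1 : δ * t = t * δ := (mem_cent1.1 tδ).symm
    have e2 : δ⁻¹ * t = t * δ⁻¹ := (Commute.inv_left e1).eq
    let σ : Equiv.Perm {s | s ∈ D ∧ s * t ∈ D} :=
      ⟨fun s => ⟨_, mv δ δN e1 s.1 s.2⟩, fun s => ⟨_, mv δ⁻¹ (inv_mem δN) e2 s.1 s.2⟩,
        fun s => Subtype.ext (by simp [mul_assoc]), fun s => Subtype.ext (by simp [mul_assoc])⟩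
    have := Fintype.ofFinite {s | s ∈ D ∧ s * t ∈ D}
    haveI : Fact (Nat.Prime 3) := ⟨by norm_num⟩
    have h3 : δ ^ 3 = 1 := δ3 ▸ pow_orderOf_eq_one δ
    obtain ⟨s, hs⟩ := Equiv.Perm.exists_fixed_point_of_prime (p := 3) (n := 1) (σ := σ)
      (by rw [← Nat.card_eq_fintype_card, Nat.card_coe_set_eq, nb.b t tD]; norm_num) (by
        ext s
        change δ * (δ * (δ * s * δ⁻¹) * δ⁻¹) * δ⁻¹ = s
        calc δ * (δ * (δ * s * δ⁻¹) * δ⁻¹) * δ⁻¹ = δ ^ 3 * s * (δ ^ 3)⁻¹ := by simp only [pow_succ, pow_zero, one_mul, mul_inv_rev, mul_assoc]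
          _ = s := by rw [h3]; simp)
    exact ⟨s, s.2.1, mem_cent1.2 (mul_inv_eq_iff_eq_mul.1 (congrArg Subtype.val hs)).symm, t, tD, tδ, s.2.2⟩

end H22.TV
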