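import Cfsg.Agent.H23.Y0
import Cfsg.Agent.H26.JE
import Cfsg.Agent.H18.YH
import Cfsg.Agent.H22.JU

/-! Part Pa of the interface `H23.Y`, from a lemma on `[v, Y]`. -/

set_option autoImplicit false
open Subgroup BG

namespace H22.YPa
universe u
open Cfsg.Agent.H06.J Cfsg.Agent.H23.K H22.JU

/-- the lemma on `[v, Y]` -/
def Hy : Prop := All.{u} fun {_ _ _ _ _ _ _ _ _ _ _ _ _ _ _ T d _ β _} _ _ Y B _ _ =>
  (∀ y ∈ Y, y ≠ 1 → {v | T y v = v}.ncard = 256) → ∀ y ∈ Y, y ≠ 1 → ∀ v, T y v = v → v ∉ B →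
  ∃ y2 ∈ Y, β (v + T y2 v) (T d v) ≠ 0

theorem hlf {V : Type u} [AddCommGroup V] [Finite V] (φ : V →+ ZMod 2) (U : AddSubgroup V) (u : V) (hu : u ∈ U)
    (n : φ u ≠ 0) : 2 * Nat.card ↥(U ⊓ φ.ker) = Nat.card U := by
  have z2 : ∀ a b : ZMod 2, a ≠ 0 → Xor' (b + a = 0) (b = 0) := by unfold Xor'; decide
  have h : φ.ker.relIndex U = 2 := AddSubgroup.index_eq_two_iff.2 ⟨⟨u, hu⟩, fun b => by
    change Xor' (φ (b + u) = 0) (φ b = 0)
    rw [map_add]; exact z2 _ _ n⟩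
  have := AddSubgroup.relIndex_mul_relIndex ⊥ (U ⊓ φ.ker) U bot_le inf_le_left
  rw [AddSubgroup.relIndex_bot_left, AddSubgroup.relIndex_bot_left, AddSubgroup.inf_relIndex_left, h] at this
  omega

theorem pa (hy : Hy.{u}) : Cfsg.Agent.H23.Y.PaStmt.{u} := by
  intro G _ _ z Q V _ _ _ Γ _ _ f π ν T d M β q s K Y B A δ cx c2 c256 t tz t2 tY tQ tA
  have lx := s.md.lx
  have g := s.gm
  have p := cx.pj
  have z2 : ∀ a : ZMod 2, a = 0 ∨ a = 1 := by decide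
  have βB : ∀ u ∈ B, ∀ v ∈ B, β u v = 0 := fun u i v j => by
    have := g.pol u v
    rw [p.qB _ (add_mem i j), p.qB u i, p.qB v j] at this
    simpa using this.symm
  have y1 : π t ≠ 1 := fun h => tQ ((s.ker t tz).1 h)
  have yy := cx.hk.hx.Y2 _ tY
  obtain ⟨c, cA, cδ, cy⟩ := c2.YA _ tY
  have cz := cx.Az cA
  have cc := cx.A2 c cA
  have ci : c⁻¹ = c := inv_eq_of_mul_eq_one_right cc
  have ti : t⁻¹ = t := inv_eq_of_mul_eq_one_right t2
  have BA : s.md.pull B ≤ A := fun x hx => (c2.e3.ge hx).1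
  have nQ : ∀ a ∈ C_[z], ∀ r ∈ Q, a * r * a⁻¹ ∈ Q := fun a ha r hr => (mem_normalizer_iff.1 (lx.norm ha) r).1 hr
  have piQ : ∀ a ∈ C_[z], π a = π t → t * a ∈ Q := fun a ha e =>
    (s.ker _ (mul_mem tz ha)).1 (by rw [H26.JE.mul s _ tz _ ha, e, yy])
  obtain ⟨r, rQ, tr⟩ : ∃ r ∈ Q, t = r * c := ⟨t * c, piQ c cz cy, by rw [mul_assoc, cc, mul_one]⟩
  have fv : T (π t) (ν r) = ν r := by
    have e : r * (c * r * c⁻¹) = 1 := by rw [ci, ← t2, tr]; group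
    have := s.md.mul _ rQ _ (nQ c cz r rQ)
    rw [e, s.md.one, ← s.act c cz r rQ, cy] at this
    exact add_left_cancel (this.symm.trans (vv _).symm)
  have cr : c * r * c⁻¹ = r := c2.cz c cz cδ r rQ (cy ▸ fv)
  have cr' : c * r = r * c := mul_inv_eq_iff_eq_mul.1 cr
  have vB : ν r ∉ B := fun h => tA (tr ▸ mul_mem (BA ⟨rQ, h⟩) cA)
  have mt : ∀ a ∈ A, a ∈ C_[t] ↔ a * r = r * a := fun a ha => by
    rw [mem_cent1, tr, ← mul_assoc, mul_assoc r, comm2 cx.A2 cA ha, ← mul_assoc, mul_left_inj]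
  have eW : s.md.pull B ⊓ C_[t] = s.md.pull (B ⊓ (β (ν r)).ker) := by
    ext a
    exact ⟨fun h => ⟨h.1.1, h.1.2, (s.b r rQ a h.1.1).2 ((mt a (BA h.1)).1 h.2).symm⟩,
      fun h => ⟨⟨h.1, h.2.1⟩, (mt a (BA ⟨h.1, h.2.1⟩)).2 ((s.b r rQ a h.1).1 h.2.2).symm⟩⟩
  obtain ⟨b0, b0B, b0n⟩ : ∃ b ∈ B, β (ν r) b ≠ 0 := by
    by_contra! h
    exact vB (g.toQF.perp βB (by rw [p.cB]; norm_num) h)
  have c32 : Nat.card ↥(B ⊓ (β (ν r)).ker) = 32 := by
    have := hlf (β (ν r)) B b0 b0B b0n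
    rw [p.cB] at this; omega
  have c64 : Nat.card ↥(s.md.pull B ⊓ C_[t]) = 64 := by rw [eW, s.md.card_pull, c32]
  have cl4 : ∀ a ∈ A ⊓ C_[t], a ∉ s.md.pull B → π a = π t := fun a ha n => by
    by_contra k
    refine vB (cx.pi.two _ (cx.AY a ha.1) _ tY (fun e => n (c2.e3.le ⟨ha.1, (s.ker a (cx.Az ha.1)).1 e⟩)) y1 k _ ?_ fv)
    rw [s.act a (cx.Az ha.1) r rQ, (mt a ha.1).1 ha.2, mul_inv_cancel_right]
  have cB : c ∉ s.md.pull B := fun h => y1 (cy ▸ (s.ker c cz).2 h.1)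
  let χ : V →+ V := AddMonoidHom.id V + T (π t)
  have cχ : Nat.card χ.range = 16 := by
    have a1 := χ.ker.card_mul_index
    have a2 : Nat.card χ.ker = 256 := by
      rw [← c256 _ tY y1, ← Nat.card_coe_set_eq]
      refine Nat.card_congr (Equiv.subtypeEquivRight fun v => ?_)
      change v + T (π t) v = 0 ↔ T (π t) v = v
      exact ⟨fun h => add_left_cancel (h.trans (vv v).symm), fun h => by rw [h, vv]⟩
    rw [a2, AddSubgroup.index_ker, g.card] at a1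
    omega
  have χo : ∀ w, T (π t) w = w → ∀ u ∈ χ.range, β w u = 0 := by
    rintro w hw _ ⟨u, rfl⟩
    change β w (u + T (π t) u) = 0
    rw [map_add]
    nth_rw 2 [← hw]
    rw [g.toQF.inv (g.qT _)]
    exact CharTwo.add_self_eq_zero _
  have χB : χ.range ≤ B ⊓ (β (ν r)).ker := fun u hu => ⟨by obtain ⟨u, rfl⟩ := hu; exact p.cm _ tY u, χo _ fv u hu⟩
  have QN : ∀ u ∈ Q, u ∈ N_(A) := fun u hu => (c2.mN u (lx.le hu)).2 fun v hv => by
    rwa [(s.ker u (lx.le hu)).2 hu, g.one]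
  have cj1 : ∀ x ∈ C_[z], π x = π t → x * x = 1 → ∀ u ∈ Q, ∃ w ∈ Q, ν w = χ (ν u) ∧ u * x * u⁻¹ = x * w :=
    fun x xz e xx u hu => ⟨x * u * x⁻¹ * u⁻¹, mul_mem (nQ x xz u hu) (inv_mem hu), by
      rw [s.md.mul _ (nQ x xz u hu) _ (inv_mem hu), s.md.inv hu, ← s.act x xz u hu, e, add_comm]; rfl, by
      rw [inv_eq_of_mul_eq_one_right xx, ← mul_assoc, ← mul_assoc, ← mul_assoc, xx, one_mul]⟩
  refine ⟨?_, c64, ?_, fun a ha n => piQ a (cx.Az ha.1) (cl4 a ha n), c, cA, cδ, cB, ?_⟩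
  · have ct : c ∈ A ⊓ C_[t] := ⟨cA, (mt c cA).2 cr'⟩
    have i2 : (s.md.pull B).relIndex (A ⊓ C_[t]) = 2 := index_eq_two_iff.2 ⟨⟨c, ct⟩, fun b => by
      change Xor' ((b : G) * c ∈ s.md.pull B) ((b : G) ∈ s.md.pull B)
      by_cases h : (b : G) ∈ s.md.pull B
      · exact Or.inr ⟨h, fun k => cB ((mul_mem_cancel_left h).1 k)⟩
      · refine Or.inl ⟨c2.e3.le ⟨mul_mem b.2.1 cA, (s.ker _ (cx.Az (mul_mem b.2.1 cA))).1 ?_⟩, h⟩
        rw [H26.JE.mul s _ (cx.Az b.2.1) _ cz, cl4 b b.2 h, cy, yy]⟩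
    have := relIndex_mul_relIndex ⊥ (s.md.pull B ⊓ (A ⊓ C_[t])) (A ⊓ C_[t]) bot_le inf_le_right
    rw [relIndex_bot_left, relIndex_bot_left, inf_relIndex_right, i2, ← inf_assoc, inf_eq_left.2 BA, c64] at this
    exact this.symm
  · have zt : ∃ n ∈ N_(A), n * t * n⁻¹ = t * z := by
      obtain ⟨u, hu, rfl⟩ := s.md.sur b0
      refine ⟨u, QN u hu, ?_⟩
      have a1 : u * c = c * u := comm2 cx.A2 (BA ⟨hu, b0B⟩) cA
      have a2 := (lx.cm hu rQ).resolve_left fun h => b0n ((s.b r rQ u hu).2 h.symm)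
      rw [← (mem_cent1.1 tz).symm, tr, ← mul_assoc, a2, mul_assoc _ u, a1]
      group
    have st : ∀ w ∈ Q, ν w ∈ χ.range → ∃ n ∈ N_(A), n ∈ C_[z] ∧ n * t * n⁻¹ = t * w := by
      rintro w hw ⟨u, e⟩
      obtain ⟨u, hu, rfl⟩ := s.md.sur u
      obtain ⟨w', hw', e1, e2⟩ := cj1 t tz rfl t2 u hu
      rcases s.md.eq hw hw' (e.symm.trans e1.symm) with h | h
      · exact ⟨u, QN u hu, lx.le hu, h ▸ e2⟩
      · obtain ⟨u0, hu0, rfl⟩ := s.md.sur b0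
        have a1 : u0 * c = c * u0 := comm2 cx.A2 (BA ⟨hu0, b0B⟩) cA
        have a2 := (lx.cm hu0 rQ).resolve_left fun h => b0n ((s.b r rQ u0 hu0).2 h.symm)
        have a3 : u0 * t * u0⁻¹ = z * t := by
          rw [tr, ← mul_assoc, a2, mul_assoc _ u0, a1]; group
        refine ⟨u * u0, QN _ (mul_mem hu hu0), lx.le (mul_mem hu hu0), ?_⟩
        calc u * u0 * t * (u * u0)⁻¹ = u * (u0 * t * u0⁻¹) * u⁻¹ := by group
          _ = z * (u * t * u⁻¹) := by rw [a3, ← mul_assoc, mem_cent1.1 (lx.le hu)]; group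
          _ = t * w := by rw [e2, h, ← mul_assoc, ← mem_cent1.1 tz, mul_assoc]
    obtain ⟨y2, y2Y, hn⟩ := hy s K Y B A δ cx c256 _ tY y1 _ fv vB
    have fw : T (π t) (T d (ν r)) = T d (ν r) := by
      rw [← g.mul, g.Md _ (cx.hk.KM (cx.hk.hx.YK tY)), g.mul, fv]
    intro w hw
    rw [eW] at hw
    by_cases k : β (T d (ν r)) (ν w) = 0
    swap
    · obtain ⟨a, aA, -, ay⟩ := c2.YA _ y2Y
      have az := cx.Az aA
      let w0 := r⁻¹ * (a * r * a⁻¹)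
      have w0Q : w0 ∈ Q := mul_mem (inv_mem rQ) (nQ a az r rQ)
      have νw0 : ν w0 = ν r + T y2 (ν r) := by
        rw [s.md.mul _ (inv_mem rQ) _ (nQ a az r rQ), s.md.inv rQ, ← s.act a az r rQ, ay]
      have w0B : w0 ∈ s.md.pull B := ⟨w0Q, νw0 ▸ p.cm _ y2Y _⟩
      have at' : a * t * a⁻¹ = t * w0 := by
        rw [tr, mul_assoc r, comm2 cx.A2 cA (BA w0B)]
        calc a * (r * c) * a⁻¹ = a * r * a⁻¹ * (a * c * a⁻¹) := by group
          _ = _ := by rw [comm2 cx.A2 aA cA, mul_inv_cancel_right]; simp only [w0]; group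
      have w0t : w0 ∈ C_[t] := by
        have : t * w0 * (t * w0) = 1 := by rw [← at']; exact H20.FtW.sq_conj t2 a
        rw [mem_cent1]
        have b2 := cx.A2 _ (BA w0B)
        calc w0 * t = t * (t * w0 * (t * w0)) * w0 := by
              rw [show t * (t * w0 * (t * w0)) * w0 = (t * t) * w0 * t * (w0 * w0) by group, t2, b2]; group
          _ = _ := by rw [this, mul_one]
      have w0W := eW.le ⟨w0B, w0t⟩
      have key : χ.range = (B ⊓ (β (ν r)).ker) ⊓ (β (T d (ν r))).ker :=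
        AddSubgroup.eq_of_le_of_card_ge (le_inf χB (χo _ fw)) (by
          have := hlf (β (T d (ν r))) _ _ hw.2 k
          omega)
      obtain ⟨n, nN, nz, e⟩ := st (w * w0) (mul_mem hw.1 w0Q) (by
        rw [key, s.md.mul _ hw.1 _ w0Q]
        refine ⟨add_mem hw.2 w0W.2, ?_⟩
        change β _ _ = 0
        rw [map_add, (z2 _).resolve_left k, νw0, g.toQF.sym, (z2 _).resolve_left hn]; decide)
      refine ⟨a * n, mul_mem (le_normalizer aA) nN, ?_⟩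
      have wA : w * w0 ∈ A := BA (mul_mem ⟨hw.1, hw.2.1⟩ w0B)
      calc a * n * t * (a * n)⁻¹ = a * (n * t * n⁻¹) * a⁻¹ := by group
        _ = a * t * a⁻¹ * (a * (w * w0) * a⁻¹) := by rw [e]; group
        _ = t * (w0 * (w * w0)) := by rw [at', comm2 cx.A2 aA wA, mul_inv_cancel_right, mul_assoc]
        _ = t * w := by rw [comm2 cx.A2 (BA w0B) wA, mul_assoc, cx.A2 _ (BA w0B), mul_one]
    · have u2 : ν r + T y2 (ν r) ∈ B ⊓ (β (ν r)).ker := ⟨p.cm _ y2Y _, by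
        change β _ _ = 0
        have := g.pol (ν r) (ν r + T y2 (ν r))
        rw [← add_assoc, vv, zero_add, g.qT, p.qB _ (p.cm _ y2Y _), add_zero] at this
        exact (add_eq_left.1 this.symm)⟩
      have key : χ.range = (B ⊓ (β (ν r)).ker) ⊓ (β (T d (ν r))).ker :=
        AddSubgroup.eq_of_le_of_card_ge (le_inf χB (χo _ fw)) (by
          have := hlf (β (T d (ν r))) _ _ u2 (by rwa [g.toQF.sym])
          omega)
      obtain ⟨n, nN, -, e⟩ := st w hw.1 (key ▸ ⟨hw.2, k⟩)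
      exact ⟨n, nN, e⟩
  · intro c' hc'
    have zA : z ∈ A := BA ⟨lx.aes.mem, s.md.zz ▸ zero_mem _⟩
    have c'A : c' ∈ A := by rcases hc' with rfl | rfl; exacts [cA, mul_mem cA zA]
    have c'y : π c' = π t := by
      rcases hc' with rfl | rfl
      · exact cy
      · rw [H26.JE.mul s _ cz _ (cx.Az zA), cy, (s.ker z (cx.Az zA)).2 lx.aes.mem, mul_one]
    have c't : c' ∈ C_[t] := by
      rcases hc' with rfl | rfl
      · exact (mt _ cA).2 cr'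
      · exact mul_mem ((mt _ cA).2 cr') (mem_cent1.2 (mem_cent1.1 tz).symm)
    rw [← cχ, ← Nat.card_coe_set_eq]
    have ex : ∀ v : χ.range, ∃ x : {x | t * x = x * t ∧ ∃ r ∈ Q, x = r * c' * r⁻¹}, ν (c'⁻¹ * x) = v := by
      rintro ⟨_, u, rfl⟩
      obtain ⟨u, hu, rfl⟩ := s.md.sur u
      obtain ⟨w, hw, e1, e2⟩ := cj1 c' (cx.Az c'A) c'y (cx.A2 _ c'A) u hu
      have wW := eW.ge ⟨hw, e1 ▸ χB ⟨_, rfl⟩⟩
      exact ⟨⟨_, e2 ▸ (mem_cent1.1 (mul_mem c't wW.2)).symm, u, hu, rfl⟩, by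
        change ν (c'⁻¹ * (u * c' * u⁻¹)) = _
        rw [e2, inv_mul_cancel_left, e1]⟩
    choose F hF using ex
    exact Nat.card_le_card_of_injective F fun a b e => Subtype.ext (by rw [← hF a, ← hF b, e])

theorem pa' : Cfsg.Agent.H23.Y.PaStmt.{u} :=
  pa fun s _ _ _ _ _ cx c _ hy n _ f b => H18.YH.hx s.gm cx.hk.hx cx.hk.KM cx.pj cx.pi c hy n f b

end H22.YPa
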