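import Cfsg.Agent.H23.Y0
import Cfsg.Agent.H11.K89
import Cfsg.Agent.H08.WP
import Cfsg.Agent.H22.JU

/-! Part Pb of the interface `H23.Y`, with the hypothesis `[A, t] ≤ W` added. -/

set_option autoImplicit false
open Subgroup BG

namespace H22.YPb
universe u
open H22.JU

theorem pb {G : Type u} [Group G] [Finite G] {A N B W : Subgroup G} {D : Set G} {z t g : G} {Ω : Type u}
    {τ : Ω → Ω → G} {σ : N →* Equiv.Perm Ω} (cf : _root_.L.Fz.Cf A N B D z) (tr : _root_.L.Fz.Tr N D τ σ) (tN : t ∈ N)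
    (t2 : t * t = 1) (c128 : Nat.card ↥(A ⊓ C_[t]) = 128) (WA : W ≤ A ⊓ C_[t]) (cW : Nat.card W = 64)
    (hW : ∀ a ∈ A, a * t * a⁻¹ * t ∈ W) (gN : g ∈ N) (gA : g ∉ A) (g7 : g ^ 7 ∈ A) (tg : t⁻¹ * (g * t * g⁻¹) ∈ A) :
    ∃ w ∈ W, g * w * g⁻¹ ∉ W := by
  by_contra! h
  haveI : Fact (Nat.Prime 7) := ⟨by norm_num⟩
  have ti : t⁻¹ = t := inv_eq_of_mul_eq_one_right t2
  have ai : ∀ a ∈ A, a⁻¹ = a := fun a ha => inv_eq_of_mul_eq_one_right (cf.sq a ha)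
  let x := g * g ^ 7
  have x7 : x ^ 7 = 1 := by
    have := cf.sq _ g7
    calc x ^ 7 = (g ^ 7 * g ^ 7) ^ 4 := by simp only [x, ← pow_succ', ← pow_add, ← pow_mul]
      _ = 1 := by rw [this, one_pow]
  have xa : ∀ a ∈ A, x * a * x⁻¹ = g * a * g⁻¹ := fun a ha => by
    calc x * a * x⁻¹ = g * (g ^ 7 * a * (g ^ 7)⁻¹) * g⁻¹ := by simp only [x, mul_inv_rev, mul_assoc]
      _ = _ := by rw [comm2 cf.sq g7 ha, mul_inv_cancel_right]
  have xN : x ∈ N := mul_mem gN (pow_mem gN 7)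
  have x1 : x ≠ 1 := fun e => gA (by
    have : g = (g ^ 7)⁻¹ := eq_inv_of_mul_eq_one_left e
    rw [this]; exact inv_mem g7)
  have ox : orderOf x = 7 := orderOf_eq_prime x7 x1
  have p4 : Nat.card ↥(W ⊓ centralizer {x}) ≤ 4 := H08.WP.pu tr _ fun y hy y1 => by
    by_contra n
    obtain ⟨m, hm, e⟩ := cf.trZ y (WA hy.1).1 y1 n
    have k : m⁻¹ * x * m ∈ N ⊓ centralizer {z} := ⟨N.mul_mem (N.mul_mem (N.inv_mem hm) xN) hm, mem_cent1.2 (by
      have := mem_cent1.1 hy.2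
      calc m⁻¹ * x * m * z = m⁻¹ * (x * (m * z * m⁻¹)) * m := by group
        _ = z * (m⁻¹ * x * m) := by rw [e, ← this, ← e]; group)⟩
    have d := (Subgroup.orderOf_dvd_natCard _ k).trans cf.cN
    have o : orderOf (m⁻¹ * x * m) = 7 := by
      rw [← ox]
      simpa using (MulAut.conj m⁻¹).orderOf_eq x
    rw [o] at d
    norm_num at d
  let ψ : A →* A := MonoidHom.mk' (fun a => a * ⟨t * a * t⁻¹, cf.nM t tN a a.2⟩) fun a b => Subtype.ext (by
    change (a * b : G) * (t * (a * b) * t⁻¹) = a * (t * a * t⁻¹) * (b * (t * b * t⁻¹))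
    have := comm2 cf.sq b.2 (cf.nM t tN a a.2)
    calc (a * b : G) * (t * (a * b) * t⁻¹) = a * (b * (t * a * t⁻¹)) * (t * b * t⁻¹) := by group
      _ = _ := by rw [this]; group)
  have ck : Nat.card ψ.ker = 128 := by
    rw [← c128, ← Nat.card_congr (subgroupOfEquivOfLe (inf_le_left : A ⊓ C_[t] ≤ A)).toEquiv]
    congr 2
    ext a
    rw [MonoidHom.mem_ker, mem_subgroupOf, mem_inf, and_iff_right a.2, mem_cent1, Subtype.ext_iff]
    change (a : G) * (t * a * t⁻¹) = 1 ↔ _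
    rw [mul_eq_one_iff_inv_eq, ai a a.2, eq_mul_inv_iff_mul_eq]
  let U := ψ.range.map A.subtype
  have cU : Nat.card U = 16 := by
    have := ψ.ker.card_mul_index
    rw [ck, index_ker, cf.cA] at this
    rw [card_map_of_injective (subtype_injective _)]
    omega
  have UW : U ≤ W := by
    rintro _ ⟨_, ⟨a, rfl⟩, rfl⟩
    have := hW a a.2
    rw [ai a a.2] at this
    change (a : G) * (t * a * t⁻¹) ∈ W
    rwa [ti, ← mul_assoc, ← mul_assoc]
  have nU : ∀ u ∈ U, x * u * x⁻¹ ∈ U := by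
    rintro _ ⟨_, ⟨a, rfl⟩, rfl⟩
    have a' := cf.nM g gN a a.2
    refine ⟨_, ⟨⟨_, a'⟩, rfl⟩, ?_⟩
    refine Eq.trans ?_ (xa _ (ψ a).2).symm
    change g * a * g⁻¹ * (t * (g * a * g⁻¹) * t⁻¹) = g * (a * (t * a * t⁻¹)) * g⁻¹
    have := comm2 cf.sq tg a'
    calc g * a * g⁻¹ * (t * (g * a * g⁻¹) * t⁻¹)
        = g * a * g⁻¹ * (t * (g * a * g⁻¹ * (t⁻¹ * (g * t * g⁻¹))) * (g * t⁻¹ * g⁻¹)) := by group
      _ = _ := by rw [← this]; group
  have m1 := H11.K89.md x7 nU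
  have m2 := H11.K89.md x7 (W := W) fun a ha => by rw [xa a (WA ha).1]; exact h a ha
  have l := card_le_of_le (inf_le_inf_right (centralizer {x}) UW)
  rw [cU] at m1
  rw [cW] at m2
  unfold Nat.ModEq at m1 m2
  omega

end H22.YPb
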